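import Cfsg.Agent.H5.OmegaGL
import Cfsg.Agent.H98.SingPair
import Cfsg.Agent.H98.QuadFun

set_option autoImplicit false
set_option linter.unusedSectionVars false

/-!
A quadratic field structure on a quadratic space of dimension at least six: lines off the field lines.
The arguments are those of `H98.OrthUnitary`, with smaller dimension bounds.
-/

namespace Cfsg.Agent.H25.SU3

open Cfsg.Agent.H5 QuadraticMap

variable {F V : Type*} [Field F] [AddCommGroup V] [Module F V] [FiniteDimensional F V] [Finite F] [Finite V]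

/-- A linear map generating a quadratic field whose elements rescale the form. -/
structure US (q : QuadraticForm F V) (J : V →ₗ[F] V) (c d : F) : Prop where
  nondeg : (polarBilin q).Nondegenerate
  big : 6 ≤ Module.finrank F V
  scale : ∀ v, q (J v) = c * q v
  self : ∀ v, polar q v (J v) = d * q v
  free : ∀ (a : F) (v : V), J v = a • v → v = 0

variable {q : QuadraticForm F V} {J : V →ₗ[F] V} {c d : F}

/-- The line over the field of a vector. -/
abbrev kspan (J : V →ₗ[F] V) (u : V) : Submodule F V := Submodule.span F ({u, J u} : Set V)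

theorem mem_kspan_self (u : V) : u ∈ kspan J u := Submodule.subset_span (by simp)

theorem mem_kspan_apply (u : V) : J u ∈ kspan J u := Submodule.subset_span (by simp)

variable (H : US q J c d)
include H

theorem US.adj (v w : V) : polar q (J v) w + polar q v (J w) = d * polar q v w := by
  have e := H.self (v + w)
  simp only [map_add, polar_add_left, polar_add_right, QuadraticMap.map_add (⇑q) v w, H.self] at e
  linear_combination e + polar_comm q (J v) w

theorem US.polar_scale (v w : V) : polar q (J v) (J w) = c * polar q v w := by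
  simp only [polar, ← map_add, H.scale]; ring

theorem US.sq (v : V) : J (J v) = d • J v - c • v := by
  rw [← sub_eq_zero]
  refine H.nondeg.2 _ fun w => ?_
  change polar q w _ = 0
  rw [polar_sub_right, polar_sub_right, polar_smul_right, polar_smul_right]
  linear_combination H.adj w (J v) - H.polar_scale w v

theorem US.n_ne (k : F) : k * k - d * k + c ≠ 0 := by
  intro h0
  haveI : Nontrivial V := Module.nontrivial_of_finrank_pos (R := F) (by have := H.big; omega)
  obtain ⟨v, hv⟩ := exists_ne (0 : V)
  refine hv (H.free k v ?_)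
  rw [← sub_eq_zero]
  refine H.free (d - k) _ ?_
  rw [map_sub, map_smul, H.sq]
  match_scalars
  · ring
  · linear_combination -h0

theorem US.c_ne : c ≠ 0 := by simpa using H.n_ne 0

theorem US.norm_sing {w : V} (hw : q w = 0) : q (J w) = 0 ∧ polar q w (J w) = 0 :=
  ⟨by rw [H.scale, hw, mul_zero], by rw [H.self, hw, mul_zero]⟩

/-- Independence over the field from a stable subspace. -/
theorem US.closure {W : Submodule F V} (hW : ∀ w ∈ W, J w ∈ W) {x : V} (hx : x ∉ W) {α β : F}
    (h : α • x + β • J x ∈ W) : α = 0 ∧ β = 0 := by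
  rcases eq_or_ne β 0 with rfl | hβ
  · rw [zero_smul, add_zero] at h
    exact ⟨by_contra fun hα => hx ((W.smul_mem_iff hα).mp h), rfl⟩
  exfalso
  set k : F := -(α / β) with hk
  have h1 : J x - k • x ∈ W := by
    have := W.smul_mem β⁻¹ h
    rw [smul_add, smul_smul, smul_smul, inv_mul_cancel₀ hβ, one_smul] at this
    convert this using 1
    rw [hk, div_eq_inv_mul]; module
  have h2 := W.sub_mem (W.smul_mem (d - k) h1) (hW _ h1)
  have e : (d - k) • (J x - k • x) - J (J x - k • x) = (k * k - d * k + c) • x := by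
    rw [map_sub, map_smul, H.sq]; module
  rw [e] at h2
  exact hx ((W.smul_mem_iff (H.n_ne k)).mp h2)

theorem US.kspan_stable (u : V) : ∀ w ∈ kspan J u, J w ∈ kspan J u := by
  intro w hw
  obtain ⟨a, b, rfl⟩ := Submodule.mem_span_pair.mp hw
  rw [map_add, map_smul, map_smul, H.sq]
  exact add_mem (Submodule.smul_mem _ _ (mem_kspan_apply u)) (Submodule.smul_mem _ _
    (sub_mem (Submodule.smul_mem _ _ (mem_kspan_apply u)) (Submodule.smul_mem _ _ (mem_kspan_self u))))

theorem US.sup_stable (u v : V) : ∀ w ∈ kspan J u ⊔ kspan J v, J w ∈ kspan J u ⊔ kspan J v := by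
  intro w hw
  obtain ⟨a, ha, b, hb, rfl⟩ := Submodule.mem_sup.mp hw
  rw [map_add]
  exact add_mem (Submodule.mem_sup_left (H.kspan_stable u a ha)) (Submodule.mem_sup_right (H.kspan_stable v b hb))

theorem US.not_symm {u z : V} (hu0 : u ≠ 0) (h : z ∉ kspan J u) : u ∉ kspan J z := by
  intro hu
  obtain ⟨a, b, e⟩ := Submodule.mem_span_pair.mp hu
  obtain ⟨rfl, rfl⟩ := H.closure (H.kspan_stable u) h (by rw [e]; exact mem_kspan_self u)
  exact hu0 (by rw [← e]; simp)

omit H in
theorem finrank_kspan_le (u : V) : Module.finrank F (kspan J u) ≤ 2 := by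
  classical
  have h4 := finrank_span_finset_le_card (R := F) ({u, J u} : Finset V)
  rw [Finset.coe_insert, Finset.coe_singleton] at h4
  exact le_trans h4 (Finset.card_le_two (a := u) (b := J u))

omit H in
theorem finrank_sup_kspan_le (u v : V) : Module.finrank F (kspan J u ⊔ kspan J v : Submodule F V) ≤ 4 := by
  have := Submodule.finrank_add_le_finrank_add_finrank (kspan J u) (kspan J v)
  have := finrank_kspan_le (J := J) u
  have := finrank_kspan_le (J := J) v
  omega

/-- A singular vector orthogonal to and outside a subspace with small radical. -/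
theorem US.exists_sing' (S : Submodule F V)
    (hS : Module.finrank F S + Module.finrank F (S ⊓ perp q S : Submodule F V) + 3 ≤ Module.finrank F V) :
    ∃ x, q x = 0 ∧ x ∈ perp q S ∧ x ∉ S := by
  set U := perp q S
  have h1 := finrank_perp_add H.nondeg S
  obtain ⟨C, hC⟩ := Submodule.exists_isCompl ((S ⊓ U).comap U.subtype)
  have h2 := Submodule.finrank_add_eq_of_isCompl hC
  rw [(Submodule.comapSubtypeEquivOfLe (inf_le_right : S ⊓ U ≤ U)).finrank_eq] at h2
  have h4 : 3 ≤ Module.finrank F C := by
    change Module.finrank F U + _ = _ at h1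
    omega
  set Q₁ : QuadraticForm F C := q.comp (U.subtype.comp C.subtype)
  obtain ⟨x, hx0, hx⟩ := H4.exists_singular_of_three_le Q₁ h4
  exact ⟨((x : U) : V), hx, (x : U).2, fun hm => hx0 (Subtype.ext
    (Submodule.disjoint_def.mp hC.disjoint (x : U) ⟨hm, (x : U).2⟩ x.2))⟩

/-- A singular vector orthogonal to and outside a small subspace. -/
theorem US.exists_sing (S : Submodule F V) (hS : 2 * Module.finrank F S + 3 ≤ Module.finrank F V) :
    ∃ x, q x = 0 ∧ x ∈ perp q S ∧ x ∉ S :=
  H.exists_sing' S (by
    have := Submodule.finrank_mono (inf_le_left : S ⊓ perp q S ≤ S)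
    omega)

/-- A vector with product one with a vector and zero with a subspace. -/
theorem US.exists_dual {S : Submodule F V} {x : V} (hx : x ∉ S) :
    ∃ y, polar q y x = 1 ∧ ∀ s ∈ S, polar q y s = 0 := by
  obtain ⟨φ, h1, h2⟩ := Submodule.exists_dual_map_eq_bot_of_notMem hx inferInstance
  have hinj : Function.Injective (polarBilin q) :=
    LinearMap.ker_eq_bot.mp (LinearMap.separatingLeft_iff_ker_eq_bot.mp H.nondeg.1)
  obtain ⟨y, hy⟩ :=
    (LinearMap.injective_iff_surjective_of_finrank_eq_finrank Subspace.dual_finrank_eq.symm).mp hinj ((φ x)⁻¹ • φ)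
  refine ⟨y, ?_, fun s hs => ?_⟩
  · rw [← polarBilin_apply_apply, hy, LinearMap.smul_apply, smul_eq_mul, inv_mul_cancel₀ h1]
  · have h3 : φ s = 0 := (Submodule.mem_bot F).mp (h2 ▸ Submodule.mem_map_of_mem hs)
    rw [← polarBilin_apply_apply, hy, LinearMap.smul_apply, h3, smul_zero]

/-- A singular vector with the same products with a small subspace as a given one, outside that subspace. -/
theorem US.exists_shift' (S : Submodule F V) (hS : Module.finrank F S + Module.finrank F (S ⊓ perp q S : Submodule F V) + 3 ≤ Module.finrank F V) (z₀ : V) :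
    ∃ z, q z = 0 ∧ z ∉ S ∧ ∀ s ∈ S, polar q z s = polar q z₀ s := by
  obtain ⟨e, hee, heS, hen⟩ := H.exists_sing' S hS
  obtain ⟨y, hy1, hyS⟩ := H.exists_dual hen
  have hpair := hypPair_of_polar hee (show polar q e y = 1 by rw [polar_comm]; exact hy1)
  set f := y + (-q y) • e
  have hfS : ∀ s ∈ S, polar q f s = 0 := fun s hs => by
    rw [polar_add_left, polar_smul_left, hyS s hs, polar_comm q e s, show polar q s e = 0 from heS s hs, smul_zero, add_zero]
  set w := z₀ - polar q f z₀ • e - polar q e z₀ • f
  have hw : w ∈ pperp q e f := hpair.decomp z₀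
  obtain ⟨hz, -, hfz⟩ := hpair.singular_lift hw
  refine ⟨_, hz, fun hm => ?_, fun s hs => ?_⟩
  · exact zero_ne_one ((hfS _ hm).symm.trans hfz)
  · simp only [w, polar_add_left, polar_sub_left, polar_smul_left, hfS s hs,
      show polar q e s = 0 by rw [polar_comm]; exact heS s hs]
    simp

/-- A singular vector with the same products with a small subspace as a given one, outside that subspace. -/
theorem US.exists_shift (S : Submodule F V) (hS : 2 * Module.finrank F S + 3 ≤ Module.finrank F V) (z₀ : V) :
    ∃ z, q z = 0 ∧ z ∉ S ∧ ∀ s ∈ S, polar q z s = polar q z₀ s :=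
  H.exists_shift' S (by
    have := Submodule.finrank_mono (inf_le_left : S ⊓ perp q S ≤ S)
    omega) z₀

/-- A singular vector with given products, not all zero, with a subspace of dimension at most `n / 2 - 1`. -/
theorem US.exists_shift_ne (h2 : (2 : F) ≠ 0) (S : Submodule F V)
    (hS : 2 * Module.finrank F S + 2 ≤ Module.finrank F V) (z₀ : V) (hne : ∃ s ∈ S, polar q z₀ s ≠ 0) :
    ∃ z, q z = 0 ∧ ∀ s ∈ S, polar q z s = polar q z₀ s := by
  by_cases hts : S ≤ perp q S
  · obtain ⟨s₀, hs₀, hs₀ne⟩ := hne
    have hq : q s₀ = 0 := by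
      have h : polar q s₀ s₀ = 0 := hts hs₀ s₀ hs₀
      rw [polar_self, two_nsmul, ← two_mul] at h
      exact (mul_eq_zero.mp h).resolve_left h2
    refine ⟨z₀ + (-q z₀ / polar q z₀ s₀) • s₀, ?_, fun s hs => ?_⟩
    · rw [QuadraticMap.map_add (⇑q), QuadraticMap.map_smul, hq, polar_smul_right, smul_zero, add_zero, smul_eq_mul,
        div_mul_cancel₀ _ hs₀ne, add_neg_cancel]
    · rw [polar_add_left, polar_smul_left, polar_comm q s₀ s, show polar q s s₀ = 0 from hts hs₀ s hs, smul_zero,
        add_zero]
  · obtain ⟨z, hz, -, hzp⟩ := H.exists_shift' S (by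
      have := Submodule.finrank_lt_finrank_of_lt (show S ⊓ perp q S < S from inf_lt_left.mpr hts)
      omega) z₀
    exact ⟨z, hz, hzp⟩

/-- Singular vectors span. -/
theorem US.sing_span {p : V → Prop} (hadd : ∀ a b, p a → p b → p (a + b)) (hsmul : ∀ (k : F) a, p a → p (k • a))
    (hsing : ∀ z, q z = 0 → p z) (x : V) : p x := by
  obtain ⟨e, hee, -, hen⟩ := H.exists_sing ⊥ (by rw [finrank_bot]; have := H.big; omega)
  obtain ⟨f, hp⟩ := exists_hypPair H.nondeg (show e ≠ 0 by simpa using hen) hee
  set w := x - polar q f x • e - polar q e x • f with hw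
  have e1 : x = (e + (-q w) • f + w) + ((polar q f x - 1) • e + (polar q e x + q w) • f) := by
    rw [hw]; module
  rw [e1]
  exact hadd _ _ (hsing _ (hp.singular_lift (hp.decomp x)).1)
    (hadd _ _ (hsmul _ _ (hsing e hp.left)) (hsmul _ _ (hsing f hp.right)))

/-- Two singular vectors have a common singular neighbour off both their lines. -/
theorem US.exists_common {u u' : V} (hu : q u = 0) (hu' : q u' = 0) (hp : polar q u u' ≠ 0) :
    ∃ x, q x = 0 ∧ polar q u x = 0 ∧ polar q u' x = 0 ∧ x ∉ kspan J u ∧ x ∉ kspan J u' := by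
  classical
  set S := Submodule.span F ({u, u'} : Set V) with hS
  have hSu : u ∈ S := Submodule.subset_span (by simp)
  have hSu' : u' ∈ S := Submodule.subset_span (by simp)
  have hS2 : Module.finrank F S ≤ 2 := by
    have h := finrank_span_finset_le_card (R := F) ({u, u'} : Finset V)
    rw [Finset.coe_insert, Finset.coe_singleton] at h
    exact le_trans h Finset.card_le_two
  have hpu : polar q u' u ≠ 0 := by rw [polar_comm]; exact hp
  have hrad : S ⊓ perp q S = ⊥ := by
    rw [Submodule.eq_bot_iff]
    rintro y ⟨hy, hy'⟩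
    obtain ⟨a, b, rfl⟩ := Submodule.mem_span_pair.mp hy
    have h1 : polar q u (a • u + b • u') = 0 := hy' u hSu
    have h2 : polar q u' (a • u + b • u') = 0 := hy' u' hSu'
    rw [polar_add_right, polar_smul_right, polar_smul_right, polar_self, hu] at h1
    rw [polar_add_right, polar_smul_right, polar_smul_right, polar_self, hu'] at h2
    simp [hp, hpu] at h1 h2
    rw [h1, h2, zero_smul, zero_smul, add_zero]
  obtain ⟨e, hee, heS, hen⟩ := H.exists_sing' S (by rw [hrad, finrank_bot]; have := H.big; omega)
  obtain ⟨y, hy1, hyS⟩ := H.exists_dual hen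
  have hpair := hypPair_of_polar hee (show polar q e y = 1 by rw [polar_comm]; exact hy1)
  set f := y + (-q y) • e with hf
  have hfS : ∀ s ∈ S, polar q s f = 0 := fun s hs => by
    rw [hf, polar_add_right, polar_smul_right, polar_comm q s y, hyS s hs, show polar q s e = 0 from heS s hs,
      smul_zero, add_zero]
  obtain ⟨r, hr, hr0⟩ := Submodule.exists_mem_ne_zero_of_ne_bot (p := perp q (S ⊔ Submodule.span F {e, f})) (by
    intro hbot
    have h1 := finrank_perp_add H.nondeg (S ⊔ Submodule.span F {e, f})
    have h2 := Submodule.finrank_add_le_finrank_add_finrank S (Submodule.span F {e, f})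
    have h3 := finrank_span_finset_le_card (R := F) ({e, f} : Finset V)
    rw [Finset.coe_insert, Finset.coe_singleton] at h3
    have h4 := le_trans h3 (Finset.card_le_two (a := e) (b := f))
    change Module.finrank F (Submodule.span F ({e, f} : Set V)) ≤ 2 at h4
    rw [hbot, finrank_bot] at h1
    have := H.big
    omega)
  have hre : polar q e r = 0 := hr e (Submodule.mem_sup_right (Submodule.subset_span (by simp)))
  have hrf : polar q f r = 0 := hr f (Submodule.mem_sup_right (Submodule.subset_span (by simp)))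
  -- a line meets the orthogonal of the other vector at most once
  have honce : ∀ a b : V, polar q b a ≠ 0 → ∀ x y, x ∈ kspan J a → y ∈ kspan J a → polar q b x = 0 → polar q b y = 0 →
      y ≠ 0 → ∃ c : F, x = c • y := by
    intro a b hab x y hx hy hbx hby hy0
    obtain ⟨x₁, x₂, rfl⟩ := Submodule.mem_span_pair.mp hx
    obtain ⟨y₁, y₂, rfl⟩ := Submodule.mem_span_pair.mp hy
    rw [polar_add_right, polar_smul_right, polar_smul_right, smul_eq_mul, smul_eq_mul] at hbx hby
    have hy2 : y₂ ≠ 0 := by
      rintro rfl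
      rw [zero_mul, add_zero] at hby
      exact hy0 (by rw [(mul_eq_zero.mp hby).resolve_right hab, zero_smul, zero_smul, add_zero])
    refine ⟨x₂ / y₂, ?_⟩
    have hx1 : x₁ = x₂ / y₂ * y₁ := by
      have : (x₁ * y₂ - x₂ * y₁) * polar q b a = 0 := by linear_combination y₂ * hbx - x₂ * hby
      have := (mul_eq_zero.mp this).resolve_right hab
      field_simp
      linear_combination this
    rw [smul_add, smul_smul, smul_smul, div_mul_cancel₀ _ hy2, ← hx1]
  have he0 : e ≠ 0 := hpair.ne_zero
  have hf0 : f ≠ 0 := hpair.symm.ne_zero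
  have hindep : ∀ a b : V, polar q b a ≠ 0 → polar q b e = 0 → polar q b f = 0 → e ∈ kspan J a → f ∈ kspan J a →
      False := fun a b hab h1 h2 h3 h4 => by
    obtain ⟨c, hc⟩ := honce a b hab e f h3 h4 h1 h2 hf0
    have h := hpair.pair
    rw [hc, polar_smul_left, polar_self, hpair.right, smul_zero, smul_zero] at h
    exact zero_ne_one h
  set g := (-q r) • e + f + r with hg
  have hgq : q g = 0 := by
    rw [hg, QuadraticMap.map_add (⇑q), QuadraticMap.map_add (⇑q), QuadraticMap.map_smul, hee, hpair.right,
      polar_smul_left, hpair.pair, polar_add_left, polar_smul_left, hre, hrf]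
    simp
  have hgS : ∀ s ∈ S, polar q s g = 0 := fun s hs => by
    rw [hg, polar_add_right, polar_add_right, polar_smul_right, show polar q s e = 0 from heS s hs, hfS s hs,
      show polar q s r = 0 from hr s (Submodule.mem_sup_left hs)]
    simp
  have hge : ∀ c : F, g ≠ c • e := fun c h => by
    have := congrArg (fun x => polar q e x) h
    simp only [hg, polar_add_right, polar_smul_right, polar_self, hee, hpair.pair, hre, smul_zero] at this
    simp at this
  have hgf : ∀ c : F, g ≠ c • f := fun c h => by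
    have h1 := congrArg (fun x => polar q e x) h
    simp only [hg, polar_add_right, polar_smul_right, polar_self, hee, hpair.pair, hre, smul_zero] at h1
    simp at h1
    subst h1
    rw [one_smul, hg, add_comm _ f, add_assoc, add_eq_left, add_eq_zero_iff_eq_neg'] at h
    have h2 := congrArg (fun x => polar q f x) h
    simp only [polar_neg_right, polar_smul_right, hrf, polar_comm q f e, hpair.pair, smul_eq_mul, mul_one,
      neg_neg] at h2
    rw [← h2, neg_zero, zero_smul, neg_zero] at h
    exact hr0 h
  by_cases he : e ∈ kspan J u ∨ e ∈ kspan J u'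
  swap
  · push Not at he
    exact ⟨e, hee, heS u hSu, heS u' hSu', he.1, he.2⟩
  by_cases hf' : f ∈ kspan J u ∨ f ∈ kspan J u'
  swap
  · push Not at hf'
    exact ⟨f, hpair.right, hfS u hSu, hfS u' hSu', hf'.1, hf'.2⟩
  refine ⟨g, hgq, hgS u hSu, hgS u' hSu', ?_, ?_⟩
  · intro hgu
    rcases he with he | he
    · obtain ⟨c, hc⟩ := honce u u' hpu g e hgu he (hgS u' hSu') (heS u' hSu') he0
      exact hge c hc
    rcases hf' with hf' | hf'
    · obtain ⟨c, hc⟩ := honce u u' hpu g f hgu hf' (hgS u' hSu') (hfS u' hSu') hf0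
      exact hgf c hc
    · exact hindep u' u hp (heS u hSu) (hfS u hSu) he hf'
  · intro hgu
    rcases he with he | he
    swap
    · obtain ⟨c, hc⟩ := honce u' u hp g e hgu he (hgS u hSu) (heS u hSu) he0
      exact hge c hc
    rcases hf' with hf' | hf'
    · exact hindep u u' hpu (heS u' hSu') (hfS u' hSu') he hf'
    · obtain ⟨c, hc⟩ := honce u' u hp g f hgu hf' (hgS u hSu) (hfS u hSu) hf0
      exact hgf c hc

/-- An element outside the normaliser maps some singular line of the field off one, for linear equivalences. -/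
theorem US.exists_bad_equiv {G : V ≃ₗ[F] V} (hg : ¬ ∃ a b : F, ∀ v, G (J v) = a • G v + b • J (G v)) :
    ∃ w, q w = 0 ∧ w ≠ 0 ∧ G (J w) ∉ kspan J (G w) := by
  by_contra hc
  push Not at hc
  let T : V →ₗ[F] V := G.symm.toLinearMap.comp (J.comp G.toLinearMap)
  have hT : ∀ w, G (T w) = J (G w) := fun w => G.apply_symm_apply _
  have hline : ∀ w, q w = 0 → w ≠ 0 → ∃ α β : F, β ≠ 0 ∧ T w = α • w + β • J w := by
    intro w hw hw0
    obtain ⟨a, b, e⟩ := Submodule.mem_span_pair.mp (hc w hw hw0)
    have hb : b ≠ 0 := fun h => hw0 (H.free a w (G.injective (by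
      rw [map_smul, ← e, h, zero_smul, add_zero])))
    refine ⟨-(b⁻¹ * a), b⁻¹, inv_ne_zero hb, G.injective ?_⟩
    rw [hT, map_add, map_smul, map_smul, ← e, smul_add, smul_smul, smul_smul, inv_mul_cancel₀ hb, one_smul]
    module
  have hsum : ∀ (w z : V) (α β α' β' : F), q w = 0 → w ≠ 0 → q z = 0 → z ∉ kspan J w → polar q w z = 0 →
      T w = α • w + β • J w → T z = α' • z + β' • J z → α' = α ∧ β' = β := by
    intro w z α β α' β' hw hw0 hz hn hwz e1 e2
    have hwz0 : w + z ≠ 0 := fun h => hn (by
      rw [eq_neg_of_add_eq_zero_right h]; exact neg_mem (mem_kspan_self w))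
    obtain ⟨a, b, -, e3⟩ := hline (w + z) (by rw [QuadraticMap.map_add (⇑q), hw, hz, hwz, add_zero, add_zero]) hwz0
    rw [map_add T, e1, e2, map_add J] at e3
    have h1 := H.closure (H.kspan_stable w) hn (α := α' - a) (β := β' - b) (by
      refine Submodule.mem_span_pair.mpr ⟨a - α, b - β, ?_⟩
      linear_combination (norm := module) -e3)
    have hα := sub_eq_zero.mp h1.1
    have hβ := sub_eq_zero.mp h1.2
    subst hα hβ
    have h2 : (α - α') • w + (β - β') • J w ∈ (⊥ : Submodule F V) := by
      rw [Submodule.mem_bot]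
      linear_combination (norm := module) e3
    obtain ⟨h3, h4⟩ := H.closure (W := ⊥) (fun y hy => by rw [Submodule.mem_bot] at hy ⊢; rw [hy, map_zero]) (by simpa using hw0) h2
    exact ⟨(sub_eq_zero.mp h3).symm, (sub_eq_zero.mp h4).symm⟩
  obtain ⟨w₀, hw₀, -, hw₀n⟩ := H.exists_sing ⊥ (by rw [finrank_bot]; have := H.big; omega)
  have hw₀0 : w₀ ≠ 0 := by simpa using hw₀n
  obtain ⟨α, β, hβ, e₀⟩ := hline w₀ hw₀ hw₀0
  have heq : ∀ (w z : V) (a b a' b' : F), q w = 0 → w ≠ 0 → q z = 0 → z ≠ 0 → z ∉ kspan J w →
      T w = a • w + b • J w → T z = a' • z + b' • J z → a' = a ∧ b' = b := by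
    intro w z a b a' b' hw hw0 hz hz0 hn e1 e2
    by_cases hp : polar q w z = 0
    · exact hsum w z a b a' b' hw hw0 hz hn hp e1 e2
    obtain ⟨x, hx, hwx, hzx, hxw, hxz⟩ := H.exists_common hw hz hp
    have hx0 : x ≠ 0 := fun h => hxw (h ▸ Submodule.zero_mem _)
    obtain ⟨c', d', -, ex⟩ := hline x hx hx0
    obtain ⟨r1, r2⟩ := hsum w x a b c' d' hw hw0 hx hxw hwx e1 ex
    obtain ⟨r3, r4⟩ := hsum z x a' b' c' d' hz hz0 hx hxz hzx e2 ex
    exact ⟨r3.symm.trans r1, r4.symm.trans r2⟩
  have hall : ∀ z, q z = 0 → T z = α • z + β • J z := by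
    intro z hz
    rcases eq_or_ne z 0 with rfl | hz0
    · simp
    obtain ⟨a', b', -, ez⟩ := hline z hz hz0
    by_cases hzn : z ∈ kspan J w₀
    swap
    · obtain ⟨r1, r2⟩ := heq w₀ z α β a' b' hw₀ hw₀0 hz hz0 hzn e₀ ez
      rw [ez, r1, r2]
    obtain ⟨u, hp⟩ := exists_hypPair H.nondeg hw₀0 hw₀
    have hun : u ∉ kspan J w₀ := fun hm => by
      obtain ⟨c₁, c₂, e⟩ := Submodule.mem_span_pair.mp hm
      have h := hp.pair
      rw [← e, polar_add_right, polar_smul_right, polar_smul_right, polar_self, hw₀, (H.norm_sing hw₀).2] at h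
      simp at h
    have hu0 : u ≠ 0 := hp.symm.ne_zero
    obtain ⟨a'', b'', -, eu⟩ := hline u hp.right hu0
    obtain ⟨r1, r2⟩ := heq w₀ u α β a'' b'' hw₀ hw₀0 hp.right hu0 hun e₀ eu
    obtain ⟨r3, r4⟩ := heq z u a' b' a'' b'' hz hz0 hp.right hu0 (fun hm => hun
      ((Submodule.span_le.mpr (by
        rintro x (rfl | rfl)
        · exact hzn
        · exact H.kspan_stable w₀ z hzn)) hm)) ez eu
    rw [ez, ← r3, ← r4, r1, r2]
  have hTall : ∀ v, T v = α • v + β • J v :=
    H.sing_span (p := fun v => T v = α • v + β • J v)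
      (fun a b ha hb => by rw [map_add, ha, hb, map_add]; module)
      (fun k a ha => by rw [map_smul, ha, map_smul]; module) hall
  refine hg ⟨-(β⁻¹ * α), β⁻¹, fun v => ?_⟩
  change G (J v) = _
  rw [← hT v, hTall v, map_add, map_smul, map_smul, smul_add, smul_smul, smul_smul, inv_mul_cancel₀ hβ, one_smul]
  module

end Cfsg.Agent.H25.SU3
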