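import Cfsg.Agent.H25.GeoLists.SpUnitary.ThreeField
import Cfsg.Agent.H98.MaximalSpPair
import Cfsg.Agent.H25.GeoLists.SpTensor.Values

set_option autoImplicit false
set_option linter.unusedSectionVars false

/-!
Unitary groups over the quadratic extension inside the symplectic group of rank three.
The arguments are those of `H98.SpUnitary`, with smaller dimension bounds.
-/

namespace Cfsg.Agent.H25.SU3

open QuadraticMap Cfsg.Agent.H98
open scoped Matrix

variable {m : ℕ} {F : Type*} [Field F] [Finite F]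

local notation "V" => (Fin m ⊕ Fin m → F)
local notation "Mat" => Matrix (Fin m ⊕ Fin m) (Fin m ⊕ Fin m) F
local notation "β" => Cfsg.Agent.H2.sympBilin m F

/-- A skew-adjoint generator of a quadratic field. -/
structure SJ (j : (Fin m ⊕ Fin m → F) →ₗ[F] (Fin m ⊕ Fin m → F)) (ν : F) : Prop where
  hm : m = 3
  two : (2 : F) ≠ 0
  anti : ∀ x y, Cfsg.Agent.H2.sympBilin m F (j x) y = - Cfsg.Agent.H2.sympBilin m F x (j y)
  sq : ∀ v, j (j v) = ν • v
  free : ∀ (a : F) v, j v = a • v → v = 0

attribute [-simp] Cfsg.Agent.H2.sympBilin_apply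

/-- An isometry as an element of the symplectic group. -/
theorem exists_gl_of_iso (L : (Fin m ⊕ Fin m → F) →ₗ[F] (Fin m ⊕ Fin m → F))
    (hL : ∀ x y, Cfsg.Agent.H2.sympBilin m F (L x) (L y) = Cfsg.Agent.H2.sympBilin m F x y) :
    ∃ g ∈ Cfsg.spGL m F, ∀ x, (g : Mat) *ᵥ x = L x := by
  have hinj : Function.Injective L := (injective_iff_map_eq_zero L).mpr fun x hx =>
    (H2.sympBilin_nondegenerate m F).1 x fun y => by rw [← hL, hx]; simp
  exact ⟨glOfEquiv (LinearEquiv.ofInjectiveEndo L hinj), mem_spGL.mpr fun x y => by simp [hL],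
    fun x => by simp⟩

variable {j : (Fin m ⊕ Fin m → F) →ₗ[F] (Fin m ⊕ Fin m → F)} {ν : F}

/-- Normalising the field. -/
def NormM (j : (Fin m ⊕ Fin m → F) →ₗ[F] (Fin m ⊕ Fin m → F)) (g : GL (Fin m ⊕ Fin m) F) : Prop :=
  ∃ a b : F, ∀ v : Fin m ⊕ Fin m → F, (g : Mat) *ᵥ (j v) = a • (g : Mat) *ᵥ v + b • j ((g : Mat) *ᵥ v)

/-- The quadratic form `v ↦ f(v, j v)`. -/
noncomputable def qf (j : (Fin m ⊕ Fin m → F) →ₗ[F] (Fin m ⊕ Fin m → F)) : QuadraticForm F (Fin m ⊕ Fin m → F) :=
  LinearMap.BilinMap.toQuadraticMap ((Cfsg.Agent.H2.sympBilin m F).compl₂ j)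

/-- The transvection of the unitary group at an isotropic point. -/
def tau (j : (Fin m ⊕ Fin m → F) →ₗ[F] (Fin m ⊕ Fin m → F)) (ν : F) (w : Fin m ⊕ Fin m → F) (b : F) :
    GL (Fin m ⊕ Fin m) F :=
  spTrans w (-(ν * b)) * spTrans (j w) b

variable (H : SJ j ν)
include H

theorem SJ.polar_qf (x y : V) : polar (qf j) x y = 2 * β x (j y) := by
  rw [qf, LinearMap.BilinMap.polar_toQuadraticMap, LinearMap.compl₂_apply, LinearMap.compl₂_apply,
    beta_swap (j x) y, H.anti x y]
  ring

omit H in
theorem qf_apply (x : V) : qf j x = β x (j x) := rfl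

theorem SJ.nu_ne : ν ≠ 0 := fun h0 => by
  obtain ⟨v, hv⟩ : ∃ v : V, v ≠ 0 := by
    refine ⟨Pi.single (Sum.inl ⟨0, by have := H.hm; omega⟩) 1, fun h => ?_⟩
    simpa using congrFun h (Sum.inl ⟨0, by have := H.hm; omega⟩)
  exact hv (H.free 0 v (by rw [zero_smul]; exact H.free 0 (j v) (by rw [H.sq, h0, zero_smul, zero_smul])))

theorem SJ.us : US (qf j) j (-ν) 0 := by
  refine ⟨⟨fun x hx => ?_, fun y hy => ?_⟩, ?_, fun v => ?_, fun v => ?_, H.free⟩
  · refine (H2.sympBilin_nondegenerate m F).1 x fun y => ?_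
    have := hx (j y)
    rw [polarBilin_apply_apply, H.polar_qf, H.sq, map_smul, smul_eq_mul] at this
    simpa [H.two, H.nu_ne] using this
  · refine (H2.sympBilin_nondegenerate m F).1 y fun x => ?_
    have := hy (j x)
    rw [polarBilin_apply_apply, polar_comm, H.polar_qf, H.sq, map_smul, smul_eq_mul] at this
    simpa [H.two, H.nu_ne] using this
  · rw [Module.finrank_fintype_fun_eq_card, Fintype.card_sum, Fintype.card_fin]
    have := H.hm; omega
  · rw [qf_apply, qf_apply, H.sq, map_smul, smul_eq_mul, beta_swap v (j v)]; ring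
  · rw [H.polar_qf, H.sq, map_smul, beta_self, smul_zero, mul_zero, zero_mul]

theorem SJ.iso {w : V} (hw : qf j w = 0) : β w (j w) = 0 ∧ β (j w) w = 0 := by
  rw [qf_apply] at hw
  exact ⟨hw, by rw [beta_swap w (j w), hw, neg_zero]⟩

theorem SJ.tau_mulVec {w : V} (hw : qf j w = 0) (b : F) (y : V) :
    (tau j ν w b : Mat) *ᵥ y = y + (-(ν * b) * β y w) • w + (b * β y (j w)) • j w := by
  simp only [tau, Units.val_mul, ← Matrix.mulVec_mulVec, spTrans_mulVec, map_add, map_smul, LinearMap.add_apply,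
    LinearMap.smul_apply, smul_eq_mul, (H.iso hw).2, mul_zero, add_zero]
  module

omit H in
theorem tau_mem (w : V) (b : F) : tau j ν w b ∈ Cfsg.spGL m F :=
  Subgroup.mul_mem _ (spTrans_mem _ _) (spTrans_mem _ _)

theorem SJ.tau_norm {w : V} (hw : qf j w = 0) (b : F) : NormM j (tau j ν w b) := ⟨0, 1, fun v => by
  simp only [H.tau_mulVec hw, H.anti v, H.sq, map_add, map_smul, map_neg, smul_eq_mul]
  module⟩

/-- Some element of the symplectic group does not normalise the field. -/
theorem SJ.exists_not_norm : ∃ g ∈ Cfsg.spGL m F, ¬ NormM j g := by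
  have hU := H.us
  obtain ⟨w, hw, -, hwn⟩ := hU.exists_sing ⊥ (by rw [finrank_bot]; have := hU.big; omega)
  have hw0 : w ≠ 0 := by simpa using hwn
  refine ⟨spTrans w 1, spTrans_mem _ _, fun ⟨a, b, h⟩ => ?_⟩
  have h1 := h w
  rw [spTrans_mulVec, spTrans_mulVec, (H.iso hw).2, beta_self] at h1
  have h2 : (-a) • w + (1 - b) • j w ∈ (⊥ : Submodule F V) := by
    rw [Submodule.mem_bot]
    linear_combination (norm := (simp; try module)) h1
  obtain ⟨ha, hb⟩ := hU.closure (W := ⊥) (fun y hy => by rw [Submodule.mem_bot] at hy ⊢; rw [hy, map_zero]) hwn h2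
  rw [neg_eq_zero] at ha
  rw [sub_eq_zero] at hb
  subst ha hb
  obtain ⟨x, hx⟩ : ∃ x, β x w ≠ 0 := by
    by_contra hc
    push Not at hc
    exact hw0 ((H2.sympBilin_nondegenerate m F).1 w fun y => by rw [beta_swap y w, hc y, neg_zero])
  have h3 := h x
  rw [spTrans_mulVec, spTrans_mulVec, map_add, map_smul] at h3
  refine hx ?_
  have h4 : (β (j x) w) • w + (-β x w) • j w ∈ (⊥ : Submodule F V) := by
    rw [Submodule.mem_bot]
    linear_combination (norm := (simp; try module)) h3
  exact neg_eq_zero.mp (hU.closure (W := ⊥) (fun y hy => by rw [Submodule.mem_bot] at hy ⊢; rw [hy, map_zero]) hwn h4).2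

variable {M : Subgroup (GL (Fin m ⊕ Fin m) F)} (hsp : M ≤ Cfsg.spGL m F)
  (hM : ∀ g ∈ Cfsg.spGL m F, NormM j g → g ∈ M)
include hsp hM

omit hM in
/-- A unitary quasi-reflection moving one vector onto another of the same norm. -/
theorem SJ.exists_qrefl (hM : ∀ g ∈ Cfsg.spGL m F, NormM j g → g ∈ M) {u r : V}
    (hn : 2 * β u (j r) + β r (j r) = 0) (hne : ¬ (β u r = 0 ∧ β u (j r) = 0)) :
    ∃ h ∈ M, (h : Mat) *ᵥ u = u + r ∧ ∀ v, β v r = 0 → β v (j r) = 0 → (h : Mat) *ᵥ v = v := by
  set a := β u r with ha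
  set b := β u (j r) with hb
  set D := b * b - ν * (a * a) with hD
  have hD0 : D ≠ 0 := fun h0 => by
    rcases eq_or_ne a 0 with h | h
    · rw [hD, h, mul_zero, mul_zero, sub_zero] at h0
      exact hne ⟨h, mul_self_eq_zero.mp h0⟩
    · obtain ⟨w, hw0⟩ : ∃ w : V, w ≠ 0 :=
        ⟨Pi.single (Sum.inl ⟨0, by have := H.hm; omega⟩) 1, fun h' => by
          simpa using congrFun h' (Sum.inl ⟨0, by have := H.hm; omega⟩)⟩
      have h2 : j (j w - (b / a) • w) = (-(b / a)) • (j w - (b / a) • w) := by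
        have e : b / a * (b / a) = ν := by rw [hD] at h0; field_simp; linear_combination h0
        rw [map_sub, map_smul, H.sq, ← e]; module
      exact hw0 (H.free (b / a) w (sub_eq_zero.mp (H.free _ _ h2)))
  let L : V →ₗ[F] V := LinearMap.id + (b / D) • (((β).flip (j r)).smulRight r - ((β).flip r).smulRight (j r)) +
    (a / D) • (((β).flip (j r)).smulRight (j r) - ν • ((β).flip r).smulRight r)
  have hL : ∀ x, L x = x + ((b * β x (j r) - a * ν * β x r) / D) • r + ((a * β x (j r) - b * β x r) / D) • j r := by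
    intro x
    simp only [L, LinearMap.add_apply, LinearMap.id_apply, LinearMap.smul_apply, LinearMap.sub_apply,
      LinearMap.smulRight_apply, LinearMap.flip_apply, LinearMap.BilinForm.flip_apply]
    match_scalars <;> ring
  have hR : β r (j r) = -2 * b := by linear_combination hn
  have hiso : ∀ x y, β (L x) (L y) = β x y := fun x y => by
    simp only [hL, map_add, map_smul, LinearMap.add_apply, LinearMap.smul_apply, smul_eq_mul, beta_self,
      beta_swap r (j r), beta_swap y r, beta_swap y (j r), hR]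
    field_simp
    rw [hD]
    ring
  obtain ⟨g, hg, hgv⟩ := exists_gl_of_iso L hiso
  refine ⟨g, hM g hg ⟨0, 1, fun x => ?_⟩, ?_, fun x h1 h2 => ?_⟩
  · rw [hgv, hgv, zero_smul, zero_add, one_smul, hL, hL, map_add, map_add, map_smul, map_smul, H.sq, H.anti x r,
      H.anti x (j r), H.sq, map_smul, smul_eq_mul]
    match_scalars <;> ring
  · rw [hgv, hL, ← ha, ← hb,
      show (b * b - a * ν * a) / D = 1 by rw [show b * b - a * ν * a = D by rw [hD]; ring, div_self hD0],
      show (a * b - b * a) / D = 0 by rw [mul_comm a b, sub_self, zero_div], one_smul, zero_smul, add_zero]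
  · rw [hgv, hL, h1, h2]; simp

/-- A unitary transvection moving a non-isotropic vector along an isotropic one orthogonal to it. -/
theorem SJ.exists_eichler {x d : V} (hd : β d (j d) = 0) (h1 : β x d = 0) (h2 : β x (j d) = 0) :
    ∃ h ∈ M, (h : Mat) *ᵥ x = x + β x (j x) • d ∧ (h : Mat) *ᵥ d = d := by
  have h3 : β d x = 0 := by rw [beta_swap x d, h1, neg_zero]
  have h4 : β d (j x) = 0 := by rw [← neg_eq_zero, ← H.anti, beta_swap x (j d), h2, neg_zero]
  let L : V →ₗ[F] V := LinearMap.id + (((β).flip (j x)).smulRight d - ((β).flip x).smulRight (j d)) -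
    (((β).flip (j d)).smulRight x - ((β).flip d).smulRight (j x)) -
    (β x (j x) / 2) • (((β).flip (j d)).smulRight d - ((β).flip d).smulRight (j d))
  have hL : ∀ v, L v = v + (β v (j x) - β x (j x) / 2 * β v (j d)) • d +
      (β x (j x) / 2 * β v d - β v x) • j d - β v (j d) • x + β v d • j x := by
    intro v
    simp only [L, LinearMap.add_apply, LinearMap.sub_apply, LinearMap.id_apply, LinearMap.smul_apply,
      LinearMap.smulRight_apply, LinearMap.flip_apply, LinearMap.BilinForm.flip_apply]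
    match_scalars <;> ring
  have hiso : ∀ u v, β (L u) (L v) = β u v := fun u v => by
    have h5 : β (j x) (j d) = 0 := by rw [H.anti, H.sq, map_smul, h1, smul_zero, neg_zero]
    have h6 : β (j d) (j x) = 0 := by rw [beta_swap (j x) (j d), h5, neg_zero]
    have h7 : β (j d) x = 0 := by rw [H.anti, h4, neg_zero]
    have h8 : β (j x) d = 0 := by rw [H.anti, h2, neg_zero]
    have h2' := H.two
    simp only [hL, map_add, map_sub, map_smul, LinearMap.add_apply, LinearMap.sub_apply, LinearMap.smul_apply,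
      smul_eq_mul, beta_self, beta_swap d (j d), hd, h1, h2, h3, h4, h5, h6, h7, h8, beta_swap x (j x),
      beta_swap v d, beta_swap v (j d), beta_swap v x, beta_swap v (j x)]
    field_simp
    ring
  obtain ⟨g, hg, hgv⟩ := exists_gl_of_iso L hiso
  refine ⟨g, hM g hg ⟨0, 1, fun v => ?_⟩, ?_, ?_⟩
  · rw [hgv, hgv, zero_smul, zero_add, one_smul, hL, hL, map_add, map_sub, map_add, map_add, map_smul, map_smul,
      map_smul, map_smul, H.sq, H.sq, H.anti v d, H.anti v (j d), H.anti v x, H.anti v (j x), H.sq, H.sq, map_smul,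
      map_smul, smul_eq_mul, smul_eq_mul]
    match_scalars <;> ring
  · rw [hgv, hL, h1, h2, beta_self]
    match_scalars <;> ring
  · rw [hgv, hL, h3, h4, hd, beta_self]; simp

/-- A short root element with orthogonal parameters, one non-isotropic, gives a transvection group. -/
theorem SJ.trans_of_spX {x y : V} (hy : β y (j y) ≠ 0) (h1 : β x y = 0) (h2 : β x (j y) = 0)
    (hX : ∀ c : F, spX x y c ∈ M) (c : F) : spTrans x c ∈ M := by
  have hν := H.nu_ne
  have h2' := H.two
  set t : F := 1 - ν with ht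
  have ht0 : t ≠ 0 := fun h => by
    have hν1 : ν = 1 := by rw [ht] at h; linear_combination -h
    have hy0 : y ≠ 0 := fun h' => hy (by rw [h', map_zero, LinearMap.zero_apply])
    have h' : j (j y - y) = (-1 : F) • (j y - y) := by rw [map_sub, H.sq, hν1]; module
    exact hy0 (H.free 1 y (by rw [one_smul]; exact sub_eq_zero.mp (H.free _ _ h')))
  set r := (2 * ν / t) • y + (2 / t) • j y with hr
  obtain ⟨h, hh, hhy, hfix⟩ := H.exists_qrefl hsp hM (u := y) (r := r) (by
    simp only [hr, map_add, map_smul, LinearMap.add_apply, LinearMap.smul_apply, smul_eq_mul, H.sq, beta_self,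
      beta_swap y (j y)]
    field_simp
    rw [ht]
    ring) (fun hh => by
    obtain ⟨h3, -⟩ := hh
    simp only [hr, map_add, map_smul, smul_eq_mul, beta_self, mul_zero, zero_add] at h3
    exact mul_ne_zero (div_ne_zero h2' ht0) hy h3)
  have hjx : β x (j r) = 0 := by
    simp only [hr, map_add, map_smul, H.sq, smul_eq_mul, h1, h2, mul_zero, add_zero]
  have hxr : β x r = 0 := by simp only [hr, map_add, map_smul, smul_eq_mul, h1, h2, mul_zero, add_zero]
  have hhx := hfix x hxr hjx
  have hb : β (y + r) y = -(2 / t) * β y (j y) := by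
    simp only [hr, map_add, map_smul, LinearMap.add_apply, LinearMap.smul_apply, smul_eq_mul, beta_self,
      beta_swap y (j y)]
    ring
  have hK : (2 : F) * β (y + r) y ≠ 0 := by
    rw [hb]; exact mul_ne_zero h2' (mul_ne_zero (neg_ne_zero.mpr (div_ne_zero h2' ht0)) hy)
  have hY : spX (y + r) x (c / (2 * β (y + r) y)) ∈ M := by
    have h' := M.mul_mem (M.mul_mem hh (hX (c / (2 * β (y + r) y)))) (M.inv_mem hh)
    rw [conj_spX (hsp hh), hhy, hhx] at h'
    rwa [spX_comm_sym (by rw [beta_swap x (y + r), map_add, h1, hxr, add_zero, neg_zero])]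
  have hm := M.mul_mem (M.mul_mem (M.mul_mem (hX 1) hY) (M.inv_mem (hX 1))) (M.inv_mem hY)
  rw [spX_commutator h1 (by rw [beta_swap x (y + r), map_add, h1, hxr, add_zero, neg_zero])
    (by rw [map_add, h1, hxr, add_zero]) (beta_self x) (by rw [beta_swap x y, h1, neg_zero])] at hm
  convert hm using 1
  refine gl_ext fun v => ?_
  rw [spTrans_mulVec, spX_mulVec (beta_self x)]
  match_scalars
  · ring
  · have hK' : β (y + r) y ≠ 0 := right_ne_zero_of_mul hK
    field_simp [hK']
    ring

/-- An element outside the normaliser puts a whole transvection group in the subgroup. -/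
theorem SJ.exists_root {g : GL (Fin m ⊕ Fin m) F} (hg : g ∈ M) (hgn : ¬ NormM j g) :
    ∃ z : V, z ≠ 0 ∧ qf j z = 0 ∧ ∀ c : F, spTrans z c ∈ M := by
  haveI : Fintype F := Fintype.ofFinite F
  have hU := H.us
  have hν := H.nu_ne
  have h2' := H.two
  let G : V ≃ₗ[F] V := Matrix.toLinearEquiv' (g : Mat) g.isUnit.invertible
  have hG : ∀ v, G v = (g : Mat) *ᵥ v := fun v => rfl
  obtain ⟨w, hw, hw0, hwn⟩ := hU.exists_bad_equiv (G := G) hgn
  rw [hG, hG] at hwn
  set u := (g : Mat) *ᵥ w with hu
  set u' := (g : Mat) *ᵥ j w with hu'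
  clear_value u u'
  have hu0 : u ≠ 0 := fun h => hw0 (gl_mulVec_injective g ((hu.symm.trans h).trans (Matrix.mulVec_zero _).symm))
  have huu' : β u u' = 0 := by rw [hu, hu', mem_spGL.mp (hsp hg)]; exact (H.iso hw).1
  have hu'u : β u' u = 0 := by rw [beta_swap u u', huu', neg_zero]
  have hconj : ∀ b : F, spTrans u (-(ν * b)) * spTrans u' b ∈ M := fun b => by
    have h := M.mul_mem (M.mul_mem hg (hM _ (tau_mem w b) (H.tau_norm hw b))) (M.inv_mem hg)
    rw [tau] at h
    rw [hu, hu', ← conj_spTrans (hsp hg), ← conj_spTrans (hsp hg)]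
    convert h using 1
    group
  have hun : u ∉ kspan j u' := hU.not_symm hu0 hwn
  have hpol : ∀ a b : V, β a b = (2 * ν)⁻¹ * polar (qf j) a (j b) := fun a b => by
    rw [H.polar_qf, H.sq, map_smul, smul_eq_mul, ← mul_assoc 2 ν, inv_mul_cancel_left₀ (mul_ne_zero H.two hν)]
  -- a transvection group at one vector is enough
  have fin : ∀ x : V, x ≠ 0 → (∀ c, spTrans x c ∈ M) → ∃ z : V, z ≠ 0 ∧ qf j z = 0 ∧ ∀ c : F, spTrans z c ∈ M := by
    intro x hx0 hx
    by_cases hxq : β x (j x) = 0
    · exact ⟨x, hx0, hxq, hx⟩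
    obtain ⟨⟨d, hdp⟩, hd0, hd⟩ := H4.exists_singular_of_three_le
      ((qf j).comp (H5.perp (qf j) (kspan j x)).subtype) (by
        have h1 := H5.finrank_perp_add hU.nondeg (kspan j x)
        change Module.finrank F (H5.perp (qf j) (kspan j x)) + _ = _ at h1
        have := finrank_kspan_le (J := j) x
        have := hU.big
        omega)
    have hd' : β d (j d) = 0 := hd
    have e1 : β x (j d) = 0 := by
      have h' : polar (qf j) x d = 0 := hdp x (mem_kspan_self x)
      rw [H.polar_qf] at h'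
      exact (mul_eq_zero.mp h').resolve_left h2'
    have e2 : β x d = 0 := by
      have h' : polar (qf j) (j x) d = 0 := hdp (j x) (mem_kspan_apply x)
      rw [H.polar_qf, H.anti, H.sq, map_smul, smul_eq_mul, mul_neg, neg_eq_zero] at h'
      exact ((mul_eq_zero.mp ((mul_eq_zero.mp h').resolve_left h2')).resolve_left hν)
    obtain ⟨h, hh, hhx, hhd⟩ := H.exists_eichler hsp hM hd' e2 e1
    have hdne : d ≠ 0 := fun h0 => hd0 (Subtype.ext h0)
    refine ⟨d, hdne, hd', fun c => ?_⟩
    set R := β x (j x) with hR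
    set k := c / (2 * R * R) with hk
    have hp : spTrans (x + R • d) k ∈ M := by
      rw [← hhx, ← conj_spTrans (hsp hh)]; exact M.mul_mem (M.mul_mem hh (hx k)) (M.inv_mem hh)
    have hm' : spTrans (x - R • d) k ∈ M := by
      have hi : ((h⁻¹ : GL (Fin m ⊕ Fin m) F) : Mat) *ᵥ x = x - R • d := by
        apply gl_mulVec_injective h
        show (h : Mat) *ᵥ (((h⁻¹ : GL (Fin m ⊕ Fin m) F) : Mat) *ᵥ x) = (h : Mat) *ᵥ (x - R • d)
        rw [gl_mulVec_inv, Matrix.mulVec_sub, Matrix.mulVec_smul, hhx, hhd, add_sub_cancel_right]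
      rw [← hi, ← conj_spTrans (hsp (M.inv_mem hh))]
      exact M.mul_mem (M.mul_mem (M.inv_mem hh) (hx k)) (M.inv_mem (M.inv_mem hh))
    have h' := M.mul_mem (M.mul_mem hp hm') (hx (-(2 * k)))
    convert h' using 1
    refine gl_ext fun y => ?_
    have e2' : β d x = 0 := by rw [beta_swap x d, e2, neg_zero]
    simp only [Units.val_mul, ← Matrix.mulVec_mulVec, spTrans_mulVec, map_add, map_sub, map_smul, LinearMap.add_apply,
      LinearMap.sub_apply, LinearMap.smul_apply, smul_eq_mul, beta_self, e2, e2']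
    match_scalars <;> (try rw [hk]) <;> (try field_simp) <;> ring
  -- conjugating and comparing gives a short root element
  have pair : ∀ (x x' : V) (κ κ' : F) (a y : V), κ ≠ 0 → (∀ b, spTrans x (κ * b) * spTrans x' (κ' * b) ∈ M) →
      ∀ h₁ ∈ M, ∀ h₂ ∈ M, (h₁ : Mat) *ᵥ x = a + y → (h₂ : Mat) *ᵥ x = a - y → (h₁ : Mat) *ᵥ x' = x' →
      (h₂ : Mat) *ᵥ x' = x' → β a y = 0 → ∀ c, spX a y c ∈ M := by
    intro x x' κ κ' a y hκ hD h₁ m₁ h₂ m₂ e₁ e₂ f₁ f₂ hay c
    have key : ∀ h ∈ M, (h : Mat) *ᵥ x' = x' → ∀ b, spTrans ((h : Mat) *ᵥ x) (κ * b) * spTrans x' (κ' * b) ∈ M :=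
      fun h hh hx' b => by
        have h' := M.mul_mem (M.mul_mem hh (hD b)) (M.inv_mem hh)
        rw [show h * (spTrans x (κ * b) * spTrans x' (κ' * b)) * h⁻¹ =
          (h * spTrans x (κ * b) * h⁻¹) * (h * spTrans x' (κ' * b) * h⁻¹) by group, conj_spTrans (hsp hh),
          conj_spTrans (hsp hh), hx'] at h'
        exact h'
    set b := c / (2 * κ) with hb
    have h' := M.mul_mem (key h₁ m₁ f₁ b) (M.inv_mem (key h₂ m₂ f₂ b))
    rw [e₁, e₂, mul_inv_rev, ← mul_assoc, mul_assoc _ (spTrans x' (κ' * b)), mul_inv_cancel, mul_one] at h'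
    convert h' using 1
    rw [eq_mul_inv_iff_mul_eq]
    refine gl_ext fun v => ?_
    have hya : β y a = 0 := by rw [beta_swap a y, hay, neg_zero]
    simp only [Units.val_mul, ← Matrix.mulVec_mulVec, spX_mulVec hay, spTrans_mulVec, map_add, map_sub, map_smul,
      LinearMap.add_apply, LinearMap.sub_apply, LinearMap.smul_apply, smul_eq_mul, beta_self, hay, hya]
    match_scalars <;> (try rw [hb]) <;> (try field_simp) <;> ring
  -- one non-isotropic member
  have oneA : ∀ (x x' : V) (κ κ' : F), κ ≠ 0 → κ' ≠ 0 → (∀ b, spTrans x (κ * b) * spTrans x' (κ' * b) ∈ M) →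
      β x x' = 0 → x ∉ kspan j x' → x ≠ 0 → β x' (j x') ≠ 0 → (β x (j x') ≠ 0 ∨ β x (j x) = 0) →
      ∃ z : V, z ≠ 0 ∧ qf j z = 0 ∧ ∀ c : F, spTrans z c ∈ M := by
    intro x x' κ κ' hκ hκ' hD hxx hxn hx0 hx' hcase
    set R := β x' (j x') with hR
    have hR' : β (j x') x' = -R := by rw [H.anti]
    have hj' : β (j x') (j x') = 0 := beta_self _
    by_cases hb : β x (j x') = 0
    · have hxq : β x (j x) = 0 := hcase.resolve_left (not_not_intro hb)
      have h3 : β x' x = 0 := by rw [beta_swap x x', hxx, neg_zero]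
      have h4 : β x' (j x) = 0 := by rw [← neg_eq_zero, ← H.anti, beta_swap x (j x'), hb, neg_zero]
      obtain ⟨h, hh, hhx', hhx⟩ := H.exists_eichler hsp hM hxq h3 h4
      have hi' : ((h⁻¹ : GL (Fin m ⊕ Fin m) F) : Mat) *ᵥ x' = x' - R • x := by
        apply gl_mulVec_injective h
        show (h : Mat) *ᵥ (((h⁻¹ : GL (Fin m ⊕ Fin m) F) : Mat) *ᵥ x') = (h : Mat) *ᵥ (x' - R • x)
        rw [gl_mulVec_inv, Matrix.mulVec_sub, Matrix.mulVec_smul, hhx, hhx', add_sub_cancel_right]
      have hi : ((h⁻¹ : GL (Fin m ⊕ Fin m) F) : Mat) *ᵥ x = x := by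
        conv_lhs => rw [← hhx, gl_inv_mulVec]
      have hX := pair x' x κ' κ x' (R • x) hκ' (fun b => by
        convert hD b using 1
        refine gl_ext fun v => ?_
        simp only [Units.val_mul, ← Matrix.mulVec_mulVec, spTrans_mulVec, map_add, map_smul, LinearMap.add_apply,
          LinearMap.smul_apply, smul_eq_mul, hxx, h3]
        match_scalars <;> ring) h hh h⁻¹ (M.inv_mem hh) hhx' hi' hhx hi (by rw [map_smul, h3, smul_zero])
      refine ⟨x, hx0, hxq, fun c => ?_⟩
      have := H.trans_of_spX hsp hM (x := R • x) (y := x') hx' (by rw [map_smul, LinearMap.smul_apply, hxx, smul_zero])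
        (by rw [map_smul, LinearMap.smul_apply, hb, smul_zero])
        (fun d => by rw [spX_comm_sym (by rw [map_smul, LinearMap.smul_apply, hxx, smul_zero])]; exact hX d) (c / (R * R))
      rwa [spTrans_smul, show R * R * (c / (R * R)) = c by field_simp] at this
    · set a := (β x (j x') / R) • x' with ha
      set y := x - a with hy
      let L : V →ₗ[F] V := -LinearMap.id + (2 / R) • (((β).flip (j x')).smulRight x' - ((β).flip x').smulRight (j x'))
      have hL : ∀ v, L v = -v + (2 / R * β v (j x')) • x' - (2 / R * β v x') • j x' := by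
        intro v
        simp only [L, LinearMap.add_apply, LinearMap.neg_apply, LinearMap.id_apply, LinearMap.smul_apply,
          LinearMap.sub_apply, LinearMap.smulRight_apply, LinearMap.flip_apply, LinearMap.BilinForm.flip_apply]
        module
      have hiso : ∀ v v', β (L v) (L v') = β v v' := fun v v' => by
        simp only [hL, map_add, map_sub, map_neg, map_smul, LinearMap.add_apply, LinearMap.sub_apply,
          LinearMap.neg_apply, LinearMap.smul_apply, smul_eq_mul, beta_self, beta_swap x' (j x'), ← hR,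
          beta_swap v' x', beta_swap v' (j x')]
        field_simp
        ring
      obtain ⟨h, hh, hhv⟩ := exists_gl_of_iso L hiso
      have hhM : h ∈ M := hM h hh ⟨0, 1, fun v => by
        rw [hhv, hhv, zero_smul, zero_add, one_smul, hL, hL, map_sub, map_add, map_neg, map_smul, map_smul, H.sq,
          H.anti v x', H.anti v (j x'), H.sq, map_smul, smul_eq_mul]
        match_scalars <;> ring⟩
      have hhx' : (h : Mat) *ᵥ x' = x' := by
        rw [hhv, hL, beta_self, ← hR, div_mul_cancel₀ _ hx', mul_zero, zero_smul, sub_zero]; module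
      have hhx : (h : Mat) *ᵥ x = a - y := by
        rw [hhv, hL, hxx, mul_zero, zero_smul, sub_zero, hy, ha]
        match_scalars <;> ring
      have hay1 : β y x' = 0 := by
        rw [hy, ha, map_sub, map_smul, LinearMap.sub_apply, LinearMap.smul_apply, hxx, beta_self, smul_zero, sub_zero]
      have hay2 : β y (j x') = 0 := by
        rw [hy, ha, map_sub, map_smul, LinearMap.sub_apply, LinearMap.smul_apply, smul_eq_mul, ← hR,
          div_mul_cancel₀ _ hx', sub_self]
      have hay : β a y = 0 := by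
        rw [beta_swap y a, ha, map_smul, hay1, smul_zero, neg_zero]
      have hX := pair x x' κ κ' a y hκ hD 1 M.one_mem h hhM (by simp [hy]) hhx (by simp) hhx' hay
      have hy0 : y ≠ 0 := fun h0 => hxn (by
        rw [show x = a from sub_eq_zero.mp (hy ▸ h0), ha]
        exact Submodule.smul_mem _ _ (mem_kspan_self x'))
      have hab : β x (j x') / R ≠ 0 := div_ne_zero hb hx'
      refine fin y hy0 (H.trans_of_spX hsp hM (y := a) ?_ ?_ ?_ fun c => ?_)
      · rw [ha]
        simp only [map_smul, LinearMap.smul_apply, smul_eq_mul, ← hR]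
        exact mul_ne_zero hab (mul_ne_zero hab hx')
      · rw [ha, map_smul, hay1, smul_zero]
      · rw [ha, map_smul, map_smul, hay2, smul_zero]
      · rw [spX_comm_sym (by rw [beta_swap a y, hay, neg_zero])]; exact hX c
  -- the complementary line
  have hperp : ∀ y ∈ H5.perp (qf j) (kspan j u' ⊔ kspan j u), ∀ p ∈ kspan j u' ⊔ kspan j u,
      β p y = 0 ∧ β p (j y) = 0 := fun y hy p hp => by
    have h1 : β p (j y) = 0 := by
      have h' : polar (qf j) p y = 0 := hy p hp
      rw [H.polar_qf] at h'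
      exact (mul_eq_zero.mp h').resolve_left h2'
    refine ⟨?_, h1⟩
    have h' : polar (qf j) (j p) y = 0 := hy _ (hU.sup_stable u' u p hp)
    rw [H.polar_qf, H.anti, H.sq, map_smul, smul_eq_mul, mul_neg, neg_eq_zero] at h'
    exact ((mul_eq_zero.mp ((mul_eq_zero.mp h').resolve_left h2')).resolve_left hν)
  have hmu : u ∈ kspan j u' ⊔ kspan j u := Submodule.mem_sup_right (mem_kspan_self u)
  have hmu' : u' ∈ kspan j u' ⊔ kspan j u := Submodule.mem_sup_left (mem_kspan_self u')
  -- the general move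
  have move : ∀ (r y : V), y ∈ H5.perp (qf j) (kspan j u' ⊔ kspan j u) → β y (j y) ≠ 0 →
      r ∈ kspan j u' ⊔ kspan j u → β u' r = 0 → β u' (j r) = 0 →
      2 * β u (j r) + β r (j r) + β y (j y) = 0 → ¬ (β u r = 0 ∧ β u (j r) = 0) → u + r ≠ 0 →
      ∃ z : V, z ≠ 0 ∧ qf j z = 0 ∧ ∀ c : F, spTrans z c ∈ M := by
    intro r y hy hyy hr hr1 hr2 hn hne hr0
    obtain ⟨yu, yju⟩ := hperp y hy u hmu
    obtain ⟨yu', yju'⟩ := hperp y hy u' hmu'
    obtain ⟨yr, yjr⟩ := hperp y hy r hr
    have yrs : β y r = 0 := by rw [beta_swap r y, yr, neg_zero]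
    have yjrs : β y (j r) = 0 := by rw [← neg_eq_zero, ← H.anti, beta_swap r (j y), yjr, neg_zero]
    have mk : ∀ e : F, e * e = 1 → ∃ h ∈ M, (h : Mat) *ᵥ u = u + (r + e • y) ∧ (h : Mat) *ᵥ u' = u' := by
      intro e he
      obtain ⟨h, hh, h1, h2⟩ := H.exists_qrefl hsp hM (u := u) (r := r + e • y) (by
        simp only [map_add, map_smul, LinearMap.add_apply, LinearMap.smul_apply, smul_eq_mul, yju, yjr, yjrs]
        linear_combination hn + β y (j y) * he) (by
        simpa only [map_add, map_smul, smul_eq_mul, yu, yju, mul_zero, add_zero] using hne)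
      exact ⟨h, hh, h1, h2 u' (by simp [map_add, map_smul, hr1, yu']) (by simp [map_add, map_smul, hr2, yju'])⟩
    obtain ⟨h₁, m₁, e₁, f₁⟩ := mk 1 (by ring)
    obtain ⟨h₂, m₂, e₂, f₂⟩ := mk (-1) (by ring)
    have hay : β (u + r) y = 0 := by rw [map_add, LinearMap.add_apply, yu, yr, add_zero]
    have hX := pair u u' (-ν) 1 (u + r) y (neg_ne_zero.mpr hν) (fun b => by
      rw [neg_mul, one_mul]; exact hconj b) h₁ m₁ h₂ m₂ (by rw [e₁]; module) (by rw [e₂]; module) f₁ f₂ hay
    refine fin (u + r) hr0 (H.trans_of_spX hsp hM hyy hay ?_ hX)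
    rw [map_add, LinearMap.add_apply, yju, yjr, add_zero]
  -- the norms on the complementary line
  have hnorm : ∀ y₀ ∈ H5.perp (qf j) (kspan j u' ⊔ kspan j u), β y₀ (j y₀) ≠ 0 → ∀ c : F, ∃ y ∈ H5.perp (qf j) (kspan j u' ⊔ kspan j u), β y (j y) = c := by
    intro y₀ hy₀ hy c
    obtain ⟨e, f, hef⟩ := Cfsg.Agent.H25.GeoLists.exists_binary_value (one_ne_zero (α := F)) (neg_ne_zero.mpr hν)
      H.two (c / β y₀ (j y₀))
    refine ⟨e • y₀ + f • j y₀, Submodule.add_mem _ (Submodule.smul_mem _ _ hy₀) (Submodule.smul_mem _ _ ?_), ?_⟩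
    · intro p hp
      have h' := (hperp y₀ hy₀ p hp).1
      show polar (qf j) p (j y₀) = 0
      rw [H.polar_qf, H.sq, map_smul, h', smul_zero, mul_zero]
    · rw [← div_mul_cancel₀ c hy, ← hef]
      simp only [map_add, map_smul, LinearMap.add_apply, LinearMap.smul_apply, smul_eq_mul, H.sq, beta_self,
        beta_swap y₀ (j y₀)]
      ring
  -- a non-isotropic vector on it
  have hline : (∀ y ∈ H5.perp (qf j) (kspan j u' ⊔ kspan j u), y ∈ kspan j u' ⊔ kspan j u → y = 0) →
      ∃ y₀ ∈ H5.perp (qf j) (kspan j u' ⊔ kspan j u), β y₀ (j y₀) ≠ 0 := by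
    intro hnd
    by_contra hc
    push Not at hc
    set S := kspan j u' ⊔ kspan j u with hSdef
    have hle : H5.perp (qf j) S ≤ S := by
      conv_rhs => rw [← H5.perp_perp hU.nondeg S]
      intro y hy z hz
      show polar (qf j) z y = 0
      have e := QuadraticMap.map_add (⇑(qf j)) z y
      rw [qf_apply, qf_apply, qf_apply, hc z hz, hc y hy, hc _ (Submodule.add_mem _ hz hy), zero_add, zero_add] at e
      exact e.symm
    have hbot : H5.perp (qf j) S = ⊥ := (Submodule.eq_bot_iff _).mpr fun y hy => hnd y hy (hle hy)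
    have h1 := H5.finrank_perp_add hU.nondeg S
    rw [hbot, finrank_bot] at h1
    have h4 : Module.finrank F S ≤ 4 := finrank_sup_kspan_le (J := j) u' u
    have := hU.big
    omega
  have hdec : ∀ y ∈ kspan j u' ⊔ kspan j u, ∃ a b c d : F, y = a • u + b • j u + c • u' + d • j u' := by
    intro y hy
    obtain ⟨p, hp, q, hq, rfl⟩ := Submodule.mem_sup.mp hy
    obtain ⟨c, d, rfl⟩ := Submodule.mem_span_pair.mp hp
    obtain ⟨a, b, rfl⟩ := Submodule.mem_span_pair.mp hq
    exact ⟨a, b, c, d, by abel⟩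
  have hju' : j u' ∈ kspan j u' ⊔ kspan j u := Submodule.mem_sup_left (mem_kspan_apply u')
  have hju : j u ∈ kspan j u' ⊔ kspan j u := Submodule.mem_sup_right (mem_kspan_apply u)
  have hjuu : β (j u) (j u') = 0 := by rw [H.anti, H.sq, map_smul, huu', smul_zero, neg_zero]
  have hju'ju : β (j u') (j u) = 0 := by rw [H.anti, H.sq, map_smul, hu'u, smul_zero, neg_zero]
  by_cases hR' : β u' (j u') = 0
  · by_cases hR : β u (j u) = 0
    · -- both isotropic
      set p := β u (j u') with hp
      have hju'u : β u' (j u) = p := by rw [← neg_inj, ← H.anti, beta_swap u (j u'), ← hp]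
      have h1 : β (j u) u = 0 := by rw [beta_swap u (j u), hR, neg_zero]
      have h2 : β (j u') u' = 0 := by rw [beta_swap u' (j u'), hR', neg_zero]
      have h3 : β (j u) u' = -p := by rw [beta_swap u' (j u), hju'u]
      have h4 : β (j u') u = -p := by rw [beta_swap u (j u'), ← hp]
      have hp0 : p ≠ 0 := by
        intro h0
        -- the span would be totally isotropic of dimension four
        have hts : kspan j u' ⊔ kspan j u ≤ H5.perp (qf j) (kspan j u' ⊔ kspan j u) := by
          intro y hy z hz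
          obtain ⟨a, b, c, d, rfl⟩ := hdec y hy
          obtain ⟨a', b', c', d', rfl⟩ := hdec z hz
          show polar (qf j) _ _ = 0
          rw [H.polar_qf]
          simp only [map_add, map_smul, LinearMap.add_apply, LinearMap.smul_apply, smul_eq_mul, H.sq, beta_self,
            huu', hu'u, hR, hR', ← hp, hju'u, h1, h2, h3, h4, hjuu, hju'ju, h0]
          ring
        have hd2 : ∀ x : V, x ≠ 0 → Module.finrank F (kspan j x) = 2 := fun x hx => by
          have hli : LinearIndependent F ![x, j x] := by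
            rw [LinearIndependent.pair_iff]
            intro a b hab
            exact hU.closure (W := ⊥) (fun y hy => by rw [Submodule.mem_bot] at hy ⊢; rw [hy, map_zero])
              (by simpa using hx) (show a • x + b • j x ∈ (⊥ : Submodule F V) by rwa [Submodule.mem_bot])
          have h := finrank_span_eq_card hli
          rwa [Matrix.range_cons, Matrix.range_cons, Matrix.range_empty, Set.union_empty, ← Set.insert_eq,
            Fintype.card_fin] at h
        have hinf : kspan j u' ⊓ kspan j u = ⊥ := by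
          rw [Submodule.eq_bot_iff]
          rintro y ⟨hy1, hy2⟩
          obtain ⟨a, b, rfl⟩ := Submodule.mem_span_pair.mp hy2
          obtain ⟨rfl, rfl⟩ := hU.closure (hU.kspan_stable u') hun hy1
          simp
        have e1 := Submodule.finrank_sup_add_finrank_inf_eq (kspan j u') (kspan j u)
        rw [hinf, finrank_bot, hd2 u' (fun h => by
          refine hw0 (H.free 0 w ?_)
          rw [zero_smul]
          exact gl_mulVec_injective g ((hu'.symm.trans h).trans (Matrix.mulVec_zero _).symm)), hd2 u hu0] at e1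
        have e2 := Submodule.finrank_mono hts
        have e3 := H5.finrank_perp_add hU.nondeg (kspan j u' ⊔ kspan j u)
        change Module.finrank F (H5.perp (qf j) (kspan j u' ⊔ kspan j u)) + _ = _ at e3
        rw [Module.finrank_fintype_fun_eq_card, Fintype.card_sum, Fintype.card_fin] at e3
        have := H.hm
        omega
      obtain ⟨y₀, hy₀, hy⟩ := hline fun y hy hyS => by
        obtain ⟨a, b, c, d, rfl⟩ := hdec y hyS
        obtain ⟨f1, f2⟩ := hperp _ hy u hmu
        obtain ⟨f3, f4⟩ := hperp _ hy u' hmu'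
        simp only [map_add, map_smul, smul_eq_mul, H.sq, beta_self, huu', hu'u, hR, hR', ← hp, hju'u, mul_zero,
          zero_add, add_zero] at f1 f2 f3 f4
        simp [hp0, H.nu_ne] at f1 f2 f3 f4
        rw [f1, f2, f3, f4]; simp
      refine move ((-(β y₀ (j y₀)) / (2 * p)) • u') y₀ hy₀ hy (Submodule.smul_mem _ _ hmu')
        (by rw [map_smul, beta_self, smul_zero]) (by rw [map_smul, map_smul, hR', smul_zero]) ?_ ?_ ?_
      · simp only [map_smul, LinearMap.smul_apply, smul_eq_mul, hR', ← hp]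
        field_simp
        ring
      · rintro ⟨-, h0⟩
        rw [map_smul, map_smul, smul_eq_mul, ← hp] at h0
        exact mul_ne_zero (div_ne_zero (neg_ne_zero.mpr hy) (mul_ne_zero h2' hp0)) hp0 h0
      · intro h0
        exact hun (by rw [eq_neg_of_add_eq_zero_left h0]; exact Submodule.neg_mem _ (Submodule.smul_mem _ _ (mem_kspan_self u')))
    · refine oneA u' u 1 (-ν) one_ne_zero (neg_ne_zero.mpr hν) (fun b => ?_) hu'u hwn ?_ hR (Or.inr hR')
      · convert hconj b using 1
        refine gl_ext fun v => ?_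
        simp only [Units.val_mul, ← Matrix.mulVec_mulVec, spTrans_mulVec, map_add, map_smul, LinearMap.add_apply,
          LinearMap.smul_apply, smul_eq_mul, huu', hu'u]
        match_scalars <;> ring
      · exact fun h0 => hwn (h0 ▸ Submodule.zero_mem _)
  by_cases hb : β u (j u') = 0
  swap
  · exact oneA u u' (-ν) 1 (neg_ne_zero.mpr hν) one_ne_zero (fun b => by rw [neg_mul, one_mul]; exact hconj b)
      huu' hun hu0 hR' (Or.inl hb)
  by_cases hR : β u (j u) = 0
  · exact oneA u u' (-ν) 1 (neg_ne_zero.mpr hν) one_ne_zero (fun b => by rw [neg_mul, one_mul]; exact hconj b)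
      huu' hun hu0 hR' (Or.inr hR)
  -- both non-isotropic and orthogonal
  have hju'u' : β u' (j u) = 0 := by rw [← neg_eq_zero, ← H.anti, beta_swap u (j u'), hb, neg_zero]
  obtain ⟨y₀, hy₀, hy⟩ := hline fun y hy hyS => by
    obtain ⟨a, b, c, d, rfl⟩ := hdec y hyS
    obtain ⟨f1, f2⟩ := hperp _ hy u hmu
    obtain ⟨f3, f4⟩ := hperp _ hy u' hmu'
    simp only [map_add, map_smul, smul_eq_mul, H.sq, beta_self, huu', hu'u, hb, hju'u', mul_zero, zero_add,
      add_zero] at f1 f2 f3 f4
    simp [hR, hR', H.nu_ne] at f1 f2 f3 f4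
    rw [f1, f2, f3, f4]; simp
  obtain ⟨e, f, hef⟩ := Cfsg.Agent.H25.GeoLists.exists_binary_value (one_ne_zero (α := F)) (neg_ne_zero.mpr hν)
    H.two (-1)
  obtain ⟨y, hy', hyy⟩ := hnorm y₀ hy₀ hy (2 * β u (j u))
  have hju'u : β u' (j u) = 0 := by rw [← neg_eq_zero, ← H.anti, beta_swap u (j u'), hb, neg_zero]
  refine move ((e - 1) • u + f • j u) y hy' (by rw [hyy]; exact mul_ne_zero h2' hR)
    (Submodule.add_mem _ (Submodule.smul_mem _ _ hmu) (Submodule.smul_mem _ _ (Submodule.mem_sup_right (mem_kspan_apply u))))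
    (by rw [map_add, map_smul, map_smul, hu'u, hju'u, smul_zero, smul_zero, add_zero])
    (by rw [map_add, map_smul, map_smul, H.sq, map_add, map_smul, map_smul, map_smul, hju'u, hu'u]; simp) ?_ ?_ ?_
  · simp only [map_add, map_smul, LinearMap.add_apply, LinearMap.smul_apply, smul_eq_mul, H.sq, beta_self,
      beta_swap u (j u), hyy]
    linear_combination β u (j u) * hef
  · rintro ⟨h0, h1⟩
    simp only [map_add, map_smul, smul_eq_mul, H.sq, beta_self, mul_zero, zero_add, add_zero] at h0 h1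
    rw [(mul_eq_zero.mp h0).resolve_right hR, sub_eq_zero.mp ((mul_eq_zero.mp h1).resolve_right hR)] at hef
    exact H.two (by linear_combination hef)
  · intro h0
    have h1 := congrArg (β u) h0
    have h2 := congrArg (β (j u)) h0
    simp only [map_add, map_smul, map_zero, smul_eq_mul, beta_self, mul_zero, zero_add, add_zero,
      beta_swap u (j u)] at h1 h2
    have ef := (mul_eq_zero.mp h1).resolve_right hR
    have ee : e = 0 := (mul_eq_zero.mp (show e * β u (j u) = 0 by linear_combination -h2)).resolve_right hR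
    rw [ee, ef] at hef
    exact one_ne_zero (α := F) (by linear_combination hef)

/-- An element outside the normaliser generates the symplectic group. -/
theorem SJ.spGL_le {g : GL (Fin m ⊕ Fin m) F} (hg : g ∈ M) (hgn : ¬ NormM j g) : Cfsg.spGL m F ≤ M := by
  classical
  have hU := H.us
  have hν := H.nu_ne
  obtain ⟨z₀, hz₀0, hz₀, hroot⟩ := H.exists_root hsp hM hg hgn
  let C : Set V := {v | ∀ d, spTrans v d ∈ M}
  have hsmul : ∀ (k : F), ∀ v ∈ C, k • v ∈ C := fun k v hv d => by rw [spTrans_smul]; exact hv _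
  have hconj : ∀ g ∈ M, ∀ v ∈ C, (g : Mat) *ᵥ v ∈ C := fun g hg v hv d => by
    rw [← conj_spTrans (hsp hg)]; exact M.mul_mem (M.mul_mem hg (hv d)) (M.inv_mem hg)
  have hadd : ∀ u ∈ C, ∀ v ∈ C, β u v ≠ 0 → u + v ∈ C := fun u hu v hv huv => by
    have := hconj _ (hv (β u v)⁻¹) u hu
    rwa [spTrans_mulVec, inv_mul_cancel₀ huv, one_smul] at this
  -- partners of isotropic centres
  have hpartner : ∀ z ∈ C, qf j z = 0 → ∀ w, qf j w = 0 → β z (j w) = 0 → β z w ≠ 0 → w ∈ C := by
    intro z hzC hz w hw h1 h2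
    have h3 := hconj _ (hM _ (tau_mem w 1) (H.tau_norm hw 1)) z hzC
    rw [H.tau_mulVec hw, h1] at h3
    simp only [mul_zero, zero_smul, add_zero, mul_one] at h3
    have h4 := hadd _ h3 _ (hsmul (-1) z hzC) (by simp [hν, h2, beta_self, beta_swap z w])
    have h5 := hsmul (-(ν * β z w))⁻¹ _ h4
    convert h5 using 1
    match_scalars <;> field_simp
    ring
  -- first partner
  have hprod : ∀ a b : V, β a b = (2 * ν)⁻¹ * polar (qf j) a (j b) := fun a b => by
    rw [H.polar_qf, H.sq, map_smul, smul_eq_mul, ← mul_assoc 2 ν, inv_mul_cancel_left₀ (mul_ne_zero H.two hν)]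
  have hadj : ∀ a b : V, polar (qf j) a (j b) = - polar (qf j) (j a) b := fun a b => by
    linear_combination hU.adj a b
  have hkz : ∀ z b : V, z ≠ 0 → qf j z = 0 → b ∉ kspan j z →
      ∃ w, qf j w = 0 ∧ β z (j w) = 0 ∧ β z w = 1 ∧ β b w ≠ 0 := by
    intro z b hz0 hzq hb
    have hz0' : z ∉ (⊥ : Submodule F V) := by simpa using hz0
    have hbot : ∀ y ∈ (⊥ : Submodule F V), j y ∈ (⊥ : Submodule F V) := fun y hy => by
      rw [Submodule.mem_bot] at hy ⊢; rw [hy, map_zero]
    have hjz : j z ∉ Submodule.span F ({z} : Set V) := fun hm => by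
      obtain ⟨a, e⟩ := Submodule.mem_span_singleton.mp hm
      refine one_ne_zero (hU.closure hbot hz0' (show (-a) • z + (1 : F) • j z ∈ (⊥ : Submodule F V) by
        rw [Submodule.mem_bot, ← e]; module)).2
    obtain ⟨y₂, y2z, y2S⟩ := hU.exists_dual hjz
    obtain ⟨w₀, hw₀, hwp⟩ := hU.exists_shift_ne H.two (kspan j z)
      (by have := finrank_kspan_le (J := j) z; have := hU.big; omega) ((-(2 * ν)) • y₂)
      ⟨j z, mem_kspan_apply z, by
        rw [polar_smul_left, y2z, smul_eq_mul, mul_one]; exact neg_ne_zero.mpr (mul_ne_zero H.two hν)⟩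
    have v1 : polar (qf j) w₀ z = 0 := by
      rw [hwp z (mem_kspan_self z), polar_smul_left, y2S z (Submodule.mem_span_singleton_self z), smul_zero]
    have v2 : polar (qf j) w₀ (j z) = -(2 * ν) := by
      rw [hwp _ (mem_kspan_apply z), polar_smul_left, y2z, smul_eq_mul, mul_one]
    have zjw : β z (j w₀) = 0 := by
      have := H.polar_qf z w₀
      rw [polar_comm, v1] at this
      exact (mul_eq_zero.mp this.symm).resolve_left H.two
    have zw : β z w₀ = 1 := by rw [hprod, hadj, polar_comm, v2]; field_simp [H.two, hν]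
    have hzq' : β z (j z) = 0 := hzq
    have hwq : β w₀ (j w₀) = 0 := hw₀
    have wz : β w₀ z = -1 := by rw [beta_swap z w₀, zw]
    have wjz : β w₀ (j z) = 0 := by rw [← neg_eq_zero, ← H.anti, beta_swap z (j w₀), zjw, neg_zero]
    have jzz : β (j z) z = 0 := by rw [beta_swap z (j z), hzq', neg_zero]
    have jzw : β (j z) w₀ = 0 := by rw [beta_swap w₀ (j z), wjz, neg_zero]
    have jwz : β (j w₀) z = 0 := by rw [beta_swap z (j w₀), zjw, neg_zero]
    have jww : β (j w₀) w₀ = 0 := by rw [beta_swap w₀ (j w₀), hwq, neg_zero]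
    have jzjw : β (j z) (j w₀) = -ν := by rw [H.anti, H.sq, map_smul, zw, smul_eq_mul, mul_one]
    have jwjz : β (j w₀) (j z) = ν := by rw [beta_swap (j z) (j w₀), jzjw, neg_neg]
    by_contra hc
    push Not at hc
    have test : ∀ w, qf j w = 0 → β z (j w) = 0 → β z w = 1 → β b w = 0 := hc
    have hbw : β b w₀ = 0 := test w₀ hw₀ zjw zw
    have hbz : β b z = 0 := by
      have := test (w₀ + z) (by rw [qf_apply]; simp [hwq, wjz, zjw, hzq']) (by simp [zjw, hzq']) (by simp [zw, beta_self])
      simpa [hbw] using this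
    have hL : ∀ r, β z r = 0 → β z (j r) = 0 → β w₀ r = 0 → β w₀ (j r) = 0 →
        β r (j r) / (2 * ν) * β b (j z) + β b r = 0 := by
      intro r h1 h2 h3 h4
      have h5 : β r z = 0 := by rw [beta_swap z r, h1, neg_zero]
      have h6 : β r w₀ = 0 := by rw [beta_swap w₀ r, h3, neg_zero]
      have h7 : β r (j z) = 0 := by rw [← neg_eq_zero, ← H.anti, beta_swap z (j r), h2, neg_zero]
      have h8 : β r (j w₀) = 0 := by rw [← neg_eq_zero, ← H.anti, beta_swap w₀ (j r), h4, neg_zero]
      have h9 : β (j z) r = 0 := by rw [H.anti, h2, neg_zero]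
      have h10 : β (j z) (j r) = 0 := by rw [H.anti, H.sq, map_smul, h1, smul_zero, neg_zero]
      set w := w₀ + r + (β r (j r) / (2 * ν)) • j z with hw
      have e := test w ?_ ?_ ?_
      · rw [hw, map_add, map_add, map_smul, hbw, zero_add, smul_eq_mul, add_comm] at e
        exact e
      · rw [qf_apply, hw]
        simp only [map_add, map_smul, LinearMap.add_apply, LinearMap.smul_apply, smul_eq_mul, H.sq, beta_self, hwq,
          h4, h8, h10, wz, h5, jzz, jzjw]
        field_simp [H.two, hν]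
        ring
      · rw [hw]
        simp only [map_add, map_smul, H.sq, zjw, h2, beta_self, smul_zero, add_zero]
      · rw [hw]
        simp only [map_add, map_smul, zw, h1, hzq', smul_zero, add_zero]
    -- a non-isotropic vector orthogonal to the pair
    have hdecomp : ∀ v : V, ∃ (A B C D : F) (r : V), v = A • z + B • j z + C • w₀ + D • j w₀ + r ∧
        β z r = 0 ∧ β z (j r) = 0 ∧ β w₀ r = 0 ∧ β w₀ (j r) = 0 := by
      intro v
      refine ⟨-β w₀ v, β (j w₀) v / ν, β z v, -β (j z) v / ν, _, (add_sub_cancel _ v).symm, ?_, ?_, ?_, ?_⟩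
      all_goals
        simp only [map_sub, map_add, map_smul, H.sq, smul_eq_mul, beta_self, hzq', hwq, zw, wz, zjw, wjz,
          H.anti]
        field_simp [hν]
        ring
    have hbjz : β b (j z) = 0 := by
      by_contra hne
      obtain ⟨r, hr1, hr2, hr3, hr4, hr0⟩ : ∃ r, β z r = 0 ∧ β z (j r) = 0 ∧ β w₀ r = 0 ∧ β w₀ (j r) = 0 ∧
          β r (j r) ≠ 0 := by
        by_contra hall
        push Not at hall
        have hrz : ∀ r, β z r = 0 → β z (j r) = 0 → β w₀ r = 0 → β w₀ (j r) = 0 → r = 0 := by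
          intro r h1 h2 h3 h4
          refine H.free 0 r ?_
          rw [zero_smul]
          refine (H2.sympBilin_nondegenerate m F).1 (j r) fun v => ?_
          obtain ⟨A, B, C, D, r', rfl, g1, g2, g3, g4⟩ := hdecomp v
          have e1 := hall (r + r') (by simp [h1, g1]) (by simp [h2, g2]) (by simp [h3, g3]) (by simp [h4, g4])
          have e2 := hall r h1 h2 h3 h4
          have e3 := hall r' g1 g2 g3 g4
          have h5 : β r z = 0 := by rw [beta_swap z r, h1, neg_zero]
          have h6 : β r w₀ = 0 := by rw [beta_swap w₀ r, h3, neg_zero]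
          have e4 : β r' (j r) = β r (j r') := by rw [beta_swap (j r) r', H.anti, neg_neg]
          simp only [map_add, LinearMap.add_apply, e2, e3, e4, zero_add, add_zero] at e1
          have e5 : β r (j r') = 0 := (mul_eq_zero.mp (show (2 : F) * β r (j r') = 0 by linear_combination e1)).resolve_left H.two
          have h7 : β r (j z) = 0 := by rw [← neg_eq_zero, ← H.anti, beta_swap z (j r), h2, neg_zero]
          have h8 : β r (j w₀) = 0 := by rw [← neg_eq_zero, ← H.anti, beta_swap w₀ (j r), h4, neg_zero]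
          rw [H.anti]
          simp only [map_add, map_smul, H.sq, h5, h6, h7, h8, e5, smul_zero, add_zero, neg_zero]
        have hle : (⊤ : Submodule F V) ≤ kspan j z ⊔ kspan j w₀ := fun v _ => by
          obtain ⟨A, B, C, D, r, rfl, g1, g2, g3, g4⟩ := hdecomp v
          rw [hrz r g1 g2 g3 g4, add_zero, add_assoc]
          exact Submodule.add_mem_sup (Submodule.mem_span_pair.mpr ⟨A, B, rfl⟩) (Submodule.mem_span_pair.mpr ⟨C, D, rfl⟩)
        have h1 := Submodule.finrank_mono hle
        rw [finrank_top] at h1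
        have := finrank_sup_kspan_le (J := j) z w₀
        have := hU.big
        omega
      have e1 := hL r hr1 hr2 hr3 hr4
      have e2 := hL (-r) (by simp [hr1]) (by simp [hr2]) (by simp [hr3]) (by simp [hr4])
      simp only [map_neg, LinearMap.neg_apply, neg_neg] at e2
      exact hne ((mul_eq_zero.mp (show (β r (j r) / ν) * β b (j z) = 0 by
        field_simp [hν, H.two] at e1 e2 ⊢
        linear_combination (norm := (field_simp [H.two]; ring)) (e1 + e2) / 2)).resolve_left (div_ne_zero hr0 hν))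
    refine hb (Submodule.mem_span_pair.mpr ⟨0, -β b (j w₀) / ν, ?_⟩)
    rw [zero_smul, zero_add, eq_comm, ← sub_eq_zero]
    refine (H2.sympBilin_nondegenerate m F).1 _ fun v => ?_
    obtain ⟨A, B, C, D, r, rfl, g1, g2, g3, g4⟩ := hdecomp v
    have hr := hL r g1 g2 g3 g4
    rw [hbjz, mul_zero, zero_add] at hr
    have h9 : β (j z) r = 0 := by rw [H.anti, g2, neg_zero]
    simp only [map_sub, map_add, map_smul, LinearMap.sub_apply, LinearMap.smul_apply, smul_eq_mul, hbz, hbjz, hbw,
      hr, h9, beta_self, jzz, jzw, jzjw]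
    field_simp [hν]
    ring
  obtain ⟨b₀, hb₀⟩ : ∃ b₀, b₀ ∉ kspan j z₀ := by
    by_contra hc
    push Not at hc
    have h1 := Submodule.finrank_mono (show (⊤ : Submodule F V) ≤ kspan j z₀ from fun x _ => hc x)
    rw [finrank_top] at h1
    have := finrank_kspan_le (J := j) z₀; have := hU.big; omega
  obtain ⟨w₁, hw₁, hw₁j, hw₁z, -⟩ := hkz z₀ b₀ hz₀0 hz₀ hb₀
  have hw₁C : w₁ ∈ C := hpartner z₀ hroot hz₀ w₁ hw₁ hw₁j (by rw [hw₁z]; exact one_ne_zero)
  -- a maximal saturated subspace
  let Good : Submodule F V → Prop := fun S => ∀ y ∈ S, (∃ s ∈ S, β s y ≠ 0) → y ∈ C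
  have hgrow : ∀ S : Submodule F V, Good S → (∃ p ∈ S, ∃ p' ∈ S, β p' p ≠ 0) → ∀ v ∈ C,
      (∃ s ∈ S, β s v ≠ 0) → Good (S ⊔ Submodule.span F {v}) := by
    intro S hS hp v hv hsv
    have reach : ∀ (y a : V) (k : F), a ∈ C → β y a ≠ 0 → y + k • a ∈ C → y ∈ C := by
      intro y a k ha hne hm
      rcases eq_or_ne k 0 with rfl | hk
      · simpa using hm
      have := hadd _ hm _ (hsmul (-k) a ha) (by simp [hk, hne, beta_self])
      rwa [neg_smul, ← sub_eq_add_neg, add_sub_cancel_right] at this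
    obtain ⟨a, ha, hav, c, hc, hca⟩ : ∃ a ∈ S, β a v ≠ 0 ∧ ∃ c ∈ S, β c a ≠ 0 := by
      obtain ⟨a, ha, hav⟩ := hsv
      obtain ⟨p, hpS, p', hp', hpp⟩ := hp
      by_cases hra : ∃ c ∈ S, β c a ≠ 0
      · exact ⟨a, ha, hav, hra⟩
      push Not at hra
      by_cases hpv : β p v = 0
      · exact ⟨a + p, S.add_mem ha hpS, by simpa [hpv] using hav, p', hp', by simpa [hra p' hp'] using hpp⟩
      · exact ⟨p, hpS, hpv, p', hp', hpp⟩
    have haC : a ∈ C := hS a ha ⟨c, hc, hca⟩
    -- vectors meeting the new one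
    have case1 : ∀ x ∈ S, ∀ t : F, β x v ≠ 0 → x + t • v ∈ C := by
      have sub : ∀ x ∈ S, ∀ t : F, β x v ≠ 0 → (∃ s ∈ S, β s x ≠ 0) → x + t • v ∈ C := fun x hx t hxv hrad =>
        reach _ v (-t) hv (by simpa [beta_self] using hxv)
          (by rw [add_assoc, ← add_smul, add_neg_cancel, zero_smul, add_zero]; exact hS x hx hrad)
      intro x hx
      by_cases hrad : ∃ s ∈ S, β s x ≠ 0
      · exact fun t hxv => sub x hx t hxv hrad
      push Not at hrad
      have main : ∀ t : F, t ≠ 0 → β x v ≠ 0 → x + t • v ∈ C := by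
        intro t ht hxv
        obtain ⟨k, hk, hkv⟩ : ∃ k : F, k ≠ 0 ∧ β x v + k * β a v ≠ 0 := by
          by_cases h : β x v + 1 * β a v = 0
          · refine ⟨-1, by simp, fun h' => hxv ?_⟩
            exact (mul_eq_zero.mp (show (2 : F) * β x v = 0 by linear_combination h + h')).resolve_left H.two
          · exact ⟨1, one_ne_zero, h⟩
        refine reach _ a k haC ?_ ?_
        · have hxa : β x a = 0 := by rw [beta_swap a x, hrad a ha, neg_zero]
          simpa [hxa, ht, beta_swap a v] using hav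
        · rw [show x + t • v + k • a = (x + k • a) + t • v by abel]
          exact sub _ (S.add_mem hx (S.smul_mem k ha)) t (by simpa using hkv)
            ⟨c, hc, by simpa [hrad c hc, hk] using hca⟩
      intro t hxv
      rcases eq_or_ne t 0 with rfl | ht
      · rw [zero_smul, add_zero]
        exact reach _ v 1 hv hxv (main 1 one_ne_zero hxv)
      · exact main t ht hxv
    intro y hy hy'
    obtain ⟨x, hx, s, hs, rfl⟩ := Submodule.mem_sup.mp hy
    obtain ⟨t, rfl⟩ := Submodule.mem_span_singleton.mp hs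
    by_cases hxv : β x v = 0
    swap
    · exact case1 x hx t hxv
    obtain ⟨q, hq, hqy⟩ := hy'
    obtain ⟨s, hsS, q', hq', rfl⟩ := Submodule.mem_sup.mp hq
    obtain ⟨t', rfl⟩ := Submodule.mem_span_singleton.mp hq'
    have hvy : β v (x + t • v) = 0 := by simp [beta_swap x v, hxv, beta_self]
    have hsy : β s (x + t • v) ≠ 0 := by
      simp only [map_add, map_smul, LinearMap.add_apply, LinearMap.smul_apply, smul_eq_mul, beta_self] at hqy hvy ⊢
      intro h; refine hqy ?_; linear_combination h + t' * hvy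
    -- a good vector pairing with `y`
    obtain ⟨s', hs', hs'y, hs'v, hs'r⟩ : ∃ s' ∈ S, β s' (x + t • v) ≠ 0 ∧ β s' v ≠ 0 ∧ ∃ c ∈ S, β c s' ≠ 0 := by
      by_cases hay : β a (x + t • v) = 0
      swap
      · exact ⟨a, ha, hay, hav, c, hc, hca⟩
      suffices ∃ k : F, β s v + k * β a v ≠ 0 ∧ β c s + k * β c a ≠ 0 by
        obtain ⟨k, k1, k2⟩ := this
        refine ⟨s + k • a, S.add_mem hsS (S.smul_mem k ha), ?_, by simpa using k1, c, hc, by simpa using k2⟩
        simp only [map_add, map_smul, LinearMap.add_apply, LinearMap.smul_apply, smul_eq_mul] at hay hsy ⊢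
        intro h; refine hsy ?_; linear_combination h - k * hay
      by_contra hcon
      push Not at hcon
      have three : ∀ k k' : F, k ≠ k' → β s v + k * β a v = 0 → β s v + k' * β a v ≠ 0 := fun k k' hkk h1 h2 =>
        hav ((mul_eq_zero.mp (show (k - k') * β a v = 0 by linear_combination h1 - h2)).resolve_left (sub_ne_zero.mpr hkk))
      have three' : ∀ k k' : F, k ≠ k' → β c s + k * β c a = 0 → β c s + k' * β c a ≠ 0 := fun k k' hkk h1 h2 =>
        hca ((mul_eq_zero.mp (show (k - k') * β c a = 0 by linear_combination h1 - h2)).resolve_left (sub_ne_zero.mpr hkk))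
      have n01 : (0 : F) ≠ 1 := zero_ne_one
      have n02 : (0 : F) ≠ -1 := fun h => n01 (by linear_combination -h)
      have n12 : (1 : F) ≠ -1 := fun h => H.two (by linear_combination h)
      by_cases a0 : β s v + 0 * β a v = 0
      · exact three' 1 (-1) n12 (hcon 1 (three 0 1 n01 a0)) (hcon (-1) (three 0 (-1) n02 a0))
      by_cases a1 : β s v + 1 * β a v = 0
      · exact three' 0 (-1) n02 (hcon 0 a0) (hcon (-1) (three 1 (-1) n12 a1))
      · exact three' 0 1 n01 (hcon 0 a0) (hcon 1 a1)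
    refine reach _ s' 1 (hS s' hs' hs'r) (fun h => hs'y (by rw [beta_swap (x + t • v) s', h, neg_zero])) ?_
    rw [one_smul, show x + t • v + s' = (x + s') + t • v by abel]
    exact case1 _ (S.add_mem hx hs') t (by simpa [hxv] using hs'v)
  obtain ⟨S, ⟨hS, hzS, hwS⟩, hmax⟩ :=
    (wellFounded_gt : WellFounded ((· > ·) : Submodule F V → Submodule F V → Prop)).has_min
      {S | Good S ∧ z₀ ∈ S ∧ w₁ ∈ S} ⟨Submodule.span F {z₀, w₁}, fun y hy _ => by
        obtain ⟨a, b, rfl⟩ := Submodule.mem_span_pair.mp hy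
        rcases eq_or_ne a 0 with rfl | ha
        · rw [zero_smul, zero_add]; exact hsmul b _ hw₁C
        rcases eq_or_ne b 0 with rfl | hb
        · rw [zero_smul, add_zero]; exact hsmul a _ hroot
        exact hadd _ (hsmul a _ hroot) _ (hsmul b _ hw₁C) (by simp [hw₁z, ha, hb]),
        Submodule.subset_span (by simp), Submodule.subset_span (by simp)⟩
  have hsat : ∀ v ∈ C, (∃ s ∈ S, β s v ≠ 0) → v ∈ S := fun v hv h => by
    by_contra hn
    refine hmax (S ⊔ Submodule.span F {v}) ⟨hgrow S hS ⟨w₁, hwS, z₀, hzS, by rw [hw₁z]; exact one_ne_zero⟩ v hv h,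
      Submodule.mem_sup_left hzS, Submodule.mem_sup_left hwS⟩ ?_
    refine lt_of_le_of_ne le_sup_left fun e => hn ?_
    rw [e]; exact Submodule.mem_sup_right (Submodule.mem_span_singleton_self v)
  have hperp : ∀ b : V, (∀ s ∈ S, β b s = 0) → b = 0 := by
    intro b hb
    have key : ∀ z, z ∈ C → z ∈ S → z ≠ 0 → qf j z = 0 → b ∈ kspan j z := fun z hzC hzS' hz0 hz => by
      by_contra hn
      obtain ⟨w, hw, hwj, hwz, hbw⟩ := hkz z b hz0 hz hn
      have hwC := hpartner z hzC hz w hw hwj (by rw [hwz]; exact one_ne_zero)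
      exact hbw (hb w (hsat w hwC ⟨z, hzS', by rw [hwz]; exact one_ne_zero⟩))
    have hw₁0 : w₁ ≠ 0 := fun h => by rw [h, map_zero] at hw₁z; exact zero_ne_one hw₁z
    have hn : w₁ ∉ kspan j z₀ := fun hm => by
      obtain ⟨p, r, e⟩ := Submodule.mem_span_pair.mp hm
      rw [← e, map_add, map_smul, map_smul, beta_self, (H.iso hz₀).1] at hw₁z
      simp at hw₁z
    obtain ⟨p, r, e⟩ := Submodule.mem_span_pair.mp (key w₁ hw₁C hwS hw₁0 hw₁)
    have hmem := key z₀ hroot hzS hz₀0 hz₀
    rw [← e] at hmem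
    obtain ⟨rfl, rfl⟩ := hU.closure (hU.kspan_stable z₀) hn hmem
    rw [← e]; simp
  have htop : ∀ x : V, x ∈ S := by
    by_contra hc
    push Not at hc
    obtain ⟨x, hx⟩ := hc
    obtain ⟨y, hy1, hyS⟩ := hU.exists_dual hx
    have := hperp (j y) fun s hs => by
      have h1 := H.polar_qf y s
      rw [hyS s hs] at h1
      rw [H.anti, (mul_eq_zero.mp h1.symm).resolve_left H.two, neg_zero]
    rw [H.free 0 y (by rw [zero_smul]; exact this), polar_zero_left] at hy1
    exact zero_ne_one hy1
  refine spGL_le_of_spTrans M fun v d => ?_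
  rcases eq_or_ne v 0 with rfl | hv
  · rw [spTrans_zero_vec]; exact M.one_mem
  refine hS v (htop v) ?_ d
  by_contra hc
  push Not at hc
  exact hv ((H2.sympBilin_nondegenerate m F).1 v fun y => by rw [beta_swap y v, hc y (htop y), neg_zero])

end Cfsg.Agent.H25.SU3

namespace Cfsg.Agent.H25.SU3

/-- The normaliser of a field of unitary type is maximal in the symplectic group, for rank three. -/
theorem sp_unitary_maximal {F : Type*} [Field F] [Fintype F] (m : ℕ) (hm : m = 3) (hodd : Odd (Fintype.card F))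
    (K : Subalgebra F (Matrix (Fin m ⊕ Fin m) (Fin m ⊕ Fin m) F)) (hK : Cfsg.Geo.IsFieldSubalgebra 2 K)
    (hac : Cfsg.Geo.IsAdjointClosedFor (Cfsg.sympForm m F) K)
    (hnsa : ¬ Cfsg.Geo.IsSelfAdjointFor (Cfsg.sympForm m F) K) :
    Cfsg.Geo.IsMaximalIn (Cfsg.spGL m F) (Cfsg.Geo.subalgebraNormalizer K ⊓ Cfsg.spGL m F) := by
  classical
  let β := Cfsg.Agent.H2.sympBilin m F
  have hβ : ∀ x y, Cfsg.sympForm m F x y = β x y := fun x y => (Cfsg.Agent.H2.sympBilin_apply x y).symm
  have h2 : (2 : F) ≠ 0 := by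
    intro h2
    haveI : CharP F 2 := CharTwo.of_one_ne_zero_of_two_eq_zero one_ne_zero h2
    exact (Nat.not_even_iff_odd.mpr hodd)
      (Nat.even_iff.mpr (FiniteField.even_card_iff_char_two.mp (ringChar.eq F 2)))
  haveI : Nonempty (Fin m ⊕ Fin m) := ⟨Sum.inl ⟨0, by omega⟩⟩
  -- a generator
  obtain ⟨k, hk, hkn⟩ : ∃ k ∈ K, ∀ a : F, k ≠ a • (1 : Matrix (Fin m ⊕ Fin m) (Fin m ⊕ Fin m) F) := by
    by_contra h
    push Not at h
    have h1 : Module.finrank F K ≤ 1 := finrank_le_one (1 : K) fun w => by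
      obtain ⟨a, ha⟩ := h w w.2
      exact ⟨a, Subtype.ext ha.symm⟩
    rw [hK.finrank_eq] at h1
    omega
  have hgen : ∀ y ∈ K, ∃ a b : F, y = a • 1 + b • k := by
    intro y hy
    have hli : LinearIndependent F ![(1 : K), ⟨k, hk⟩] := by
      rw [LinearIndependent.pair_iff]
      intro a b hab
      have hab' : a • (1 : Matrix (Fin m ⊕ Fin m) (Fin m ⊕ Fin m) F) + b • k = 0 := congrArg Subtype.val hab
      have hb : b = 0 := by
        by_contra hb
        refine hkn (-(b⁻¹ * a)) ?_
        have : b • k = -(a • (1 : Matrix (Fin m ⊕ Fin m) (Fin m ⊕ Fin m) F)) := eq_neg_of_add_eq_zero_right hab'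
        rw [← inv_smul_smul₀ hb k, this, smul_neg, smul_smul, neg_smul]
      refine ⟨?_, hb⟩
      rw [hb, zero_smul, add_zero] at hab'
      exact (smul_eq_zero.1 hab').resolve_right one_ne_zero
    have : (⟨y, hy⟩ : K) ∈ Submodule.span F (Set.range ![(1 : K), ⟨k, hk⟩]) :=
      (hli.span_eq_top_of_card_eq_finrank (by simp [hK.finrank_eq])) ▸ trivial
    obtain ⟨c, hc⟩ := (Submodule.mem_span_range_iff_exists_fun F).mp this
    refine ⟨c 0, c 1, ?_⟩
    have := congrArg Subtype.val hc
    simpa [Fin.sum_univ_two] using this.symm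
  -- the adjoint of the generator
  obtain ⟨k', hk', hadj⟩ := hac k hk
  obtain ⟨α, b, rfl⟩ := hgen k' hk'
  have hA : ∀ u v, β (Matrix.mulVec k u) v = α * β u v + b * β u (Matrix.mulVec k v) := fun u v => by
    rw [← hβ, hadj u v, hβ, Matrix.add_mulVec, Matrix.smul_mulVec, Matrix.smul_mulVec, Matrix.one_mulVec, map_add,
      map_smul, map_smul, smul_eq_mul, smul_eq_mul]
  have hA' : ∀ u v, β u (Matrix.mulVec k v) = α * β u v + b * β (Matrix.mulVec k u) v := fun u v => by
    have h := hA v u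
    rw [Cfsg.Agent.H98.beta_swap u (Matrix.mulVec k v), Cfsg.Agent.H98.beta_swap u v,
      Cfsg.Agent.H98.beta_swap (Matrix.mulVec k u) v] at h
    linear_combination -h
  have hnd := Cfsg.Agent.H2.sympBilin_nondegenerate m F
  have hnot : ∀ c d : F, (∀ u v, c * β (Matrix.mulVec k u) v = d * β u v) → c = 0 := by
    intro c d h
    by_contra hc
    refine hkn (c⁻¹ * d) (Matrix.ext_of_mulVec_single fun i => ?_)
    rw [← sub_eq_zero]
    refine hnd.1 _ fun y => ?_
    rw [Matrix.smul_mulVec, Matrix.one_mulVec, map_sub, map_smul, LinearMap.sub_apply, LinearMap.smul_apply,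
      smul_eq_mul, mul_assoc, ← h, inv_mul_cancel_left₀ hc, sub_self]
  have hb2 : 1 - b * b = 0 := hnot _ (α * (1 + b)) fun u v => by linear_combination hA u v + b * hA' u v
  have hb : b = -1 := by
    rcases mul_self_eq_one_iff.mp (sub_eq_zero.mp hb2).symm with hb | hb
    · exfalso
      subst hb
      have hα : α = 0 := by
        by_contra hα
        obtain ⟨u, v, huv⟩ : ∃ u v, β u v ≠ 0 := by
          by_contra hc; push Not at hc
          obtain ⟨i⟩ := (inferInstance : Nonempty (Fin m ⊕ Fin m))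
          have := congrFun (hnd.1 (Pi.single i 1) fun y => hc _ y) i
          simp at this
        refine huv ((mul_eq_zero.mp (show (2 : F) * α * β u v = 0 by linear_combination -hA u v - hA' u v)).resolve_left
          (mul_ne_zero h2 hα))
      refine hnsa fun y hy u v => ?_
      obtain ⟨p, r, rfl⟩ := hgen y hy
      rw [hβ, hβ, Matrix.add_mulVec, Matrix.smul_mulVec, Matrix.smul_mulVec, Matrix.one_mulVec, Matrix.add_mulVec,
        Matrix.smul_mulVec, Matrix.smul_mulVec, Matrix.one_mulVec]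
      simp only [map_add, map_smul, LinearMap.add_apply, LinearMap.smul_apply, smul_eq_mul]
      rw [hA u v, hα]; ring
    · exact hb
  subst hb
  -- the skew-adjoint generator
  set K₀ : Matrix (Fin m ⊕ Fin m) (Fin m ⊕ Fin m) F := k - (α / 2) • 1 with hK₀
  have hK₀m : K₀ ∈ K := K.sub_mem hk (K.smul_mem K.one_mem _)
  have hgen₀ : ∀ y ∈ K, ∃ a b : F, y = a • 1 + b • K₀ := fun y hy => by
    obtain ⟨p, r, rfl⟩ := hgen y hy
    exact ⟨p + r * (α / 2), r, by rw [hK₀]; module⟩
  set j : (Fin m ⊕ Fin m → F) →ₗ[F] (Fin m ⊕ Fin m → F) := Matrix.mulVecLin K₀ with hj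
  have hjv : ∀ v, j v = Matrix.mulVec k v - (α / 2) • v := fun v => by
    rw [hj, Matrix.mulVecLin_apply, hK₀, Matrix.sub_mulVec, Matrix.smul_mulVec, Matrix.one_mulVec]
  have hanti : ∀ x y, β (j x) y = - β x (j y) := fun x y => by
    rw [hjv, hjv, map_sub, map_sub, map_smul, map_smul, LinearMap.sub_apply, LinearMap.smul_apply, smul_eq_mul,
      hA x y]
    field_simp
    ring
  have hfree : ∀ (a : F) v, j v = a • v → v = 0 := fun a v hv => by
    have hy : K₀ - a • (1 : Matrix (Fin m ⊕ Fin m) (Fin m ⊕ Fin m) F) ≠ 0 := fun h => hkn (a + α / 2) (by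
      rw [sub_eq_zero, hK₀, sub_eq_iff_eq_add] at h
      rw [h]; module)
    have hmem := K.sub_mem hK₀m (K.smul_mem K.one_mem a)
    obtain ⟨y, hyK, hyy⟩ := hK.inv _ hmem hy
    have h0 : Matrix.mulVec (K₀ - a • (1 : Matrix (Fin m ⊕ Fin m) (Fin m ⊕ Fin m) F)) v = 0 := by
      rw [Matrix.sub_mulVec, Matrix.smul_mulVec, Matrix.one_mulVec, sub_eq_zero]
      exact hv
    have := congrArg (Matrix.mulVec y) h0
    rwa [Matrix.mulVec_mulVec, ← hK.comm _ hmem _ hyK, hyy, Matrix.one_mulVec, Matrix.mulVec_zero] at this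
  obtain ⟨ν, r₀, hsq⟩ := hgen₀ (K₀ * K₀) (K.mul_mem hK₀m hK₀m)
  have hsqv : ∀ v, j (j v) = ν • v + r₀ • j v := fun v => by
    rw [hj, Matrix.mulVecLin_apply, Matrix.mulVecLin_apply, Matrix.mulVec_mulVec, hsq, Matrix.add_mulVec,
      Matrix.smul_mulVec, Matrix.smul_mulVec, Matrix.one_mulVec]
  have hr₀ : r₀ = 0 := by
    have h : ∀ x y, r₀ * β (j x) y = 0 := fun x y => by
      have e : β (j (j x)) y = β x (j (j y)) := by rw [hanti, hanti, neg_neg]
      simp only [hsqv, map_add, map_smul, LinearMap.add_apply, LinearMap.smul_apply, smul_eq_mul] at e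
      exact (mul_eq_zero.mp (show (2 : F) * (r₀ * β (j x) y) = 0 by linear_combination e + r₀ * hanti x y)).resolve_left h2
    refine hnot r₀ (r₀ * (α / 2)) fun u v => ?_
    have := h u v
    rw [hjv, map_sub, map_smul, LinearMap.sub_apply, LinearMap.smul_apply, smul_eq_mul] at this
    linear_combination this
  have H : Cfsg.Agent.H25.SU3.SJ j ν :=
    ⟨hm, h2, hanti, fun v => by rw [hsqv, hr₀, zero_smul, add_zero], hfree⟩
  have hiff : ∀ g : GL (Fin m ⊕ Fin m) F, g ∈ Cfsg.Geo.subalgebraNormalizer K ↔ Cfsg.Agent.H25.SU3.NormM j g := by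
    intro g
    constructor
    · intro h
      obtain ⟨a, b, hab⟩ := hgen₀ _ ((h K₀).mp hK₀m)
      refine ⟨a, b, fun v => ?_⟩
      have e : (g : Matrix (Fin m ⊕ Fin m) (Fin m ⊕ Fin m) F) * K₀ = (a • 1 + b • K₀) * (g : Matrix (Fin m ⊕ Fin m) (Fin m ⊕ Fin m) F) := by
        rw [← hab, mul_assoc, Units.inv_mul, mul_one]
      rw [hj, Matrix.mulVecLin_apply, Matrix.mulVecLin_apply, Matrix.mulVec_mulVec, e, ← Matrix.mulVec_mulVec,
        Matrix.add_mulVec, Matrix.smul_mulVec, Matrix.smul_mulVec, Matrix.one_mulVec]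
    · rintro ⟨a, b, hab⟩
      have e : (g : Matrix (Fin m ⊕ Fin m) (Fin m ⊕ Fin m) F) * K₀ = (a • 1 + b • K₀) * (g : Matrix (Fin m ⊕ Fin m) (Fin m ⊕ Fin m) F) := by
        refine Matrix.ext_of_mulVec_single fun i => ?_
        rw [← Matrix.mulVec_mulVec, ← Matrix.mulVec_mulVec, Matrix.add_mulVec, Matrix.smul_mulVec, Matrix.smul_mulVec,
          Matrix.one_mulVec]
        exact hab (Pi.single i 1)
      set G : Matrix (Fin m ⊕ Fin m) (Fin m ⊕ Fin m) F := (g : Matrix (Fin m ⊕ Fin m) (Fin m ⊕ Fin m) F)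
      set G' : Matrix (Fin m ⊕ Fin m) (Fin m ⊕ Fin m) F := ((g⁻¹ : GL (Fin m ⊕ Fin m) F) : Matrix (Fin m ⊕ Fin m) (Fin m ⊕ Fin m) F)
      have hGG : G * G' = 1 := Units.mul_inv g
      have hG'G : G' * G = 1 := Units.inv_mul g
      have e' : G * K₀ * G' = a • 1 + b • K₀ := by rw [e, mul_assoc, hGG, mul_one]
      have hb : b ≠ 0 := fun hb => hkn (a + α / 2) (by
        have := congrArg (fun X => G' * X * G) e'
        simp [hb, ← mul_assoc, hG'G] at this
        rw [mul_assoc, hG'G, mul_one, hK₀, sub_eq_iff_eq_add] at this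
        rw [this]; module)
      intro y
      constructor
      · intro hy
        obtain ⟨p, r, rfl⟩ := hgen₀ y hy
        rw [mul_add, add_mul, Matrix.mul_smul, Matrix.mul_smul, Matrix.smul_mul, Matrix.smul_mul, mul_one, e', hGG]
        exact K.add_mem (K.smul_mem K.one_mem p)
          (K.smul_mem (K.add_mem (K.smul_mem K.one_mem a) (K.smul_mem hK₀m b)) r)
      · intro hy
        obtain ⟨p, r, hpr⟩ := hgen₀ _ hy
        have : y = (p - r / b * a) • 1 + (r / b) • K₀ := by
          have h2 : G * y * G' = G * ((p - r / b * a) • 1 + (r / b) • K₀) * G' := by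
            rw [hpr, mul_add, add_mul, Matrix.mul_smul, Matrix.mul_smul, Matrix.smul_mul, Matrix.smul_mul, mul_one,
              e', hGG]
            match_scalars <;> field_simp <;> ring
          have h3 := congrArg (fun X => G' * X * G) h2
          simpa [mul_assoc, hG'G, ← mul_assoc G' G] using h3
        rw [this]
        exact K.add_mem (K.smul_mem K.one_mem _) (K.smul_mem hK₀m _)
  refine Cfsg.Agent.H98.isMaximalIn_of inf_le_right ?_ ?_
  · obtain ⟨g, hg, hgn⟩ := H.exists_not_norm
    exact ⟨g, hg, fun h => hgn ((hiff g).mp h.1)⟩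
  · intro M hHM hMK g hgM hgH
    exact H.spGL_le hMK (fun x hx hxn => hHM ⟨(hiff x).mpr hxn, hx⟩) hgM
      fun h => hgH ⟨(hiff g).mpr h, hMK hgM⟩

end Cfsg.Agent.H25.SU3
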